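import Cfsg.Agent.Lib.He.F

set_option autoImplicit false
set_option maxRecDepth 100000
set_option synthInstance.maxSize 2000

/-! # More finite checks -/

namespace Cfsg.Agent.Lib.He

theorem cu_f : ∀ ε, ∀ k < 8, dz ε (rep k) = false → ∀ b ∈ IL, dz ε b = true → b * rep k = rep k * b →
    ∃ i, inU i b = true ∧ inU i (rep k) = true := by decide +kernel
theorem ev_U : ∀ ε i, ε i = true → ∀ w ∈ UL i, dz ε w = true → dz ε (w * t0) = true ∨ w = z0 ∨
    dz ε (z0 * w) = true ∨ dz ε (z0 * w * t0) = true := by decide +kernel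
theorem ev_Z : ∀ ε, ∀ w ∈ ZL, dz ε w = true → dz ε (w * t0) = true ∨ w = z0 ∨
    dz ε (z0 * w) = true ∨ dz ε (z0 * w * t0) = true := by decide +kernel
theorem v_U : ∀ ε i, ε i = true → ∀ y ∈ UL i, dz ε y = true ∨ dz ε (y * t0) = true ∨ y = 1 ∨ y = t0 ∨
    y = tp ∨ y = tp * t0 := by decide +kernel
theorem v_Z : ∀ ε, ∀ y ∈ ZL, dz ε y = true ∨ dz ε (y * t0) = true ∨ y = 1 ∨ y = t0 ∨
    y = tp ∨ y = tp * t0 := by decide +kernel
theorem v_dz : ∀ ε, dz ε tp = false ∧ dz ε (tp * t0) = false ∧ dz ε (z0 * t0) = false ∧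
    dz ε (z0 * tp) = true ∧ dz ε (z0 * tp * t0) = true ∧ ∀ i, dz ε (uu i) = true := by decide +kernel
theorem reg_f : ∀ i, ∀ y ∈ UL (!i), inU i y = true ∨ ∀ s ∈ UL i, inU (!i) s = true ∨
    (cls (y * s * (y * s)) < 4 ∧ inU (!i) (y * s * (y * s)) = true) := by decide +kernel
theorem fpf_f : ∀ j, uu j * uu (!j) * (uu j * uu (!j)) = z0 ∧ inU j (uu j) = true ∧
    inU (!j) (uu j) = false ∧ inU j (uu (!j)) = false ∧ ∀ y ∈ UL j, inU (!j) (y * uu j) = true →
    ∀ w ∈ UL (!j), y * w * (y * w) = 1 ∨ y * w * (y * w) = z0 ∨ cls (y * w * (y * w) * t0) < 4 := by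
  decide +kernel
theorem L_f : ∀ ε j, ε j = false → ∀ u ∈ UL j, dz ε u = true → inU (!j) u = true ∨
    (dz ε (u * t0) = false ∧ ∀ m ∈ ZL, dz ε (u * m) = true → m = 1 ∨ dz ε m = true) := by decide +kernel
theorem J_f : ∀ a : M, inR a = true → a * tp = tp * a → ∃ u ∈ UL false, inU true (u * a) = true := by
  decide +kernel
theorem out_f : (IL.filter fun a => inR a && !decide (a * tp = tp * a)).length = 16 := by decide +kernel
theorem cnt_I : ∀ ε, (ZL.filter fun w => dz ε w && !dz ε (w * t0)).length = 3 ∧ ∀ i,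
    (ε i = true → ((UL i).filter fun w => dz ε w && !dz ε (w * t0)).length = 15) ∧
    (ε i = false → ((UL i).filter fun w => dz ε w && !inU (!i) w).length = 12) := by decide +kernel
theorem I1_f : ∀ ε, ∀ u ∈ ZL, dz ε u = true → dz ε (u * t0) = true → ∃ s ∈ [tp, tp * t0],
    dz ε (u * s) = true ∧ dz ε (u * s * t0) = false := by decide +kernel
theorem tp_f : (∀ i, inU i tp = true) ∧ tp ≠ 1 ∧ tp ≠ t0 ∧ tp * t0 ≠ 1 ∧ tp * t0 ≠ t0 ∧ t0 ≠ 1 ∧
    tp * t0 ≠ tp := by decide +kernel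

/-- test for `z0 ∈ ⟨y⟩` -/
def zin (y : M) : Bool := decide (y * y * y = z0) || decide (y * y * y * (y * y * y) = z0) ||
  decide (y * y * y * (y * y * y) * (y * y * y * (y * y * y)) = z0)
def o24 (y : M) : Bool := decide (y * y * y * (y * y * y) * (y * y * y * (y * y * y)) *
  (y * y * y * (y * y * y) * (y * y * y * (y * y * y))) = 1)
def tZ : ℕ → List ℕ
  | 0 => [0, 0, 0, 0]
  | 1 => [72, 24, 72, 24]
  | 2 => [72, 72, 24, 24]
  | 3 => [33, 33, 33, 33]
  | 6 => [0, 0, 108, 4]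
  | 7 => [0, 108, 0, 4]
  | _ => []
def cZ (ε : Bool → Bool) (k : ℕ) : ℕ := (tZ k).getD (2 * (ε false).toNat + (ε true).toNat) 0

theorem o24_f : ∀ k ∈ [0, 1, 2, 3, 6, 7], ∀ v ∈ IL, cls v < 4 ∨ o24 (rep k * v) = true := by
  decide +kernel
theorem cZ_f : ∀ ε, ∀ k < 8, dz ε (rep k) = true →
    (IL.filter fun v => dt ε v && zin (rep k * v)).length = cZ ε k := by decide +kernel
theorem aZ_f : ∀ ε, ((IL.filter (dz ε)).map fun a => cZ ε (cls a)).sum =
    if ε false = ε true then 4788 else 22260 := by decide +kernel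
theorem cnt_cls : (IL.filter fun a => cls a = 4).length = 42 ∧ (IL.filter fun a => cls a = 5).length = 84 ∧
    (IL.filter fun a => cls a = 6).length = 168 ∧ (IL.filter fun a => cls a = 7).length = 168 := by
  decide +kernel

end Cfsg.Agent.Lib.He
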