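import Cfsg.Agent.Lib.He.Geo

set_option autoImplicit false
set_option maxRecDepth 100000

/-! # The order formula -/

namespace Cfsg.Agent.Lib.He

open Subgroup Finset Cfsg.Agent.Lib.Core
open Cfsg.Agent.Lib.Root.J1 (Iv conj_comm' comm_of_conj comm_conj card_eq_orbit_mul card_eq_ncard)
open Cfsg.Agent.Lib.Jk (mc back conj_inj ncard_conj)

variable {G : Type*} [Group G]

noncomputable def ff (z : G) (φ : M →* G) (s : M) : ℕ := {v | IsConj (φ t0) v ∧ φ s ∈ zpowers (z * v)}.ncard

noncomputable def FF (t u s : G) : ℕ := {v | IsConj t v ∧ s ∈ zpowers (u * v)}.ncard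

theorem FF_conj (t u s g : G) : FF t (g * u * g⁻¹) (g * s * g⁻¹) = FF t u s :=
  (ncard_conj g _ _ fun v => by
    rw [isConj_cj, conj_mul]
    simp only [mem_zpowers_iff, conj_zpow, conj_inj]).symm

theorem iv_comm {u v s : G} (hu : Iv u) (hv : Iv v) (hs : Iv s) (m : s ∈ zpowers (u * v)) :
    u * s = s * u ∧ v * s = s * v := by
  obtain ⟨k, rfl⟩ := mem_zpowers_iff.1 m
  have e : ∀ a : G, a * (u * v) * a⁻¹ = (u * v)⁻¹ → a * (u * v) ^ k = (u * v) ^ k * a := fun a ha =>
    mul_inv_eq_iff_eq_mul.1 (by rw [← conj_zpow, ha, inv_zpow, hs.inv])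
  exact ⟨e u (Invol.conj_mul_eq_inv hu.2 hv.2), e v (Invol.conj_right_mul_eq_inv hu.2 hv.2)⟩

theorem zin_iff {y s : G} (hs : Iv s) (h : (y ^ 3) ^ 8 = 1) :
    s ∈ zpowers y ↔ y ^ 3 = s ∨ (y ^ 3) ^ 2 = s ∨ (y ^ 3) ^ 4 = s := by
  have m : ∀ n, (y ^ 3) ^ n ∈ zpowers y := fun n => pow_mem (pow_mem (mem_zpowers y) 3) n
  refine ⟨fun e => ?_, ?_⟩
  · by_cases e4 : (y ^ 3) ^ 4 = 1
    · by_cases e2 : (y ^ 3) ^ 2 = 1
      · refine .inl (iv_unique ⟨fun e1 => hs.1 ?_, by rw [← pow_two, e2]⟩ hs (by simp) e)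
        obtain ⟨k, rfl⟩ := mem_zpowers_iff.1 e
        have : (y ^ k) ^ 3 = 1 := by rw [← zpow_natCast, ← zpow_mul, mul_comm, zpow_mul, zpow_natCast, e1,
          one_zpow]
        rwa [pow_succ, pow_two, hs.2, one_mul] at this
      · exact .inr (.inl (iv_unique ⟨e2, by rw [← pow_add, e4]⟩ hs (m 2) e))
    · exact .inr (.inr (iv_unique ⟨e4, by rw [← pow_add, h]⟩ hs (m 4) e))
  · rintro (rfl | rfl | rfl)
    exacts [by simp, m 2, m 4]

theorem sum_cls (ε : Bool → Bool) (f : ℕ → ℕ) (l : List M) :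
    ((l.filter (dt ε)).map fun a => f (cls a)).sum = (l.filter fun a => cls a = 4).length * f 4 +
      (l.filter fun a => cls a = 5).length * f 5 +
      (if ε false then 0 else (l.filter fun a => cls a = 6).length * f 6) +
      (if ε true then 0 else (l.filter fun a => cls a = 7).length * f 7) := by
  induction l with
  | nil => simp
  | cons a l ih =>
    have e : dt ε a = (Nat.blt (cls a) 8 && !(Nat.blt (cls a) 4 || (Nat.beq (cls a) 6 && ε false) ||
      (Nat.beq (cls a) 7 && ε true))) := rfl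
    have := (cls_spec a).2.1
    simp only [List.filter_cons, e]
    rcases hk : cls a with _ | _ | _ | _ | _ | _ | _ | _ | _ | k <;>
      cases h1 : ε false <;> cases h2 : ε true <;> simp [h1, h2, hk, Nat.blt, Nat.ble, Nat.beq] at ih this ⊢ <;>
      first | omega | (rw [ih]; ring)

theorem Emb.sum_list [Fintype G] {z : G} {φ : M →* G} (h : Emb z φ) (P : G → Prop) [DecidablePred P]
    (F : G → ℕ) (l : List M) (hl : l.Nodup) (hF : ∀ g, P g → F g ≠ 0 → g * z = z * g)
    (hQ : ∀ a, P (φ a) ↔ a ∈ l) : ∑ u with P u, F u = (l.map fun a => F (φ a)).sum := by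
  classical
  rw [← List.sum_toFinset _ hl, ← sum_image (g := φ) (f := F) fun a _ b _ e => h.inj e]
  refine (sum_subset (fun u hu => ?_) fun u hu e => ?_).symm
  · obtain ⟨a, ha, rfl⟩ := mem_image.1 hu
    simpa using (hQ a).2 (by simpa using ha)
  · by_contra e1
    obtain ⟨a, rfl⟩ := h.surj u (hF u (mem_filter.1 hu).2 e1)
    exact e (mem_image_of_mem _ (by simpa using (hQ a).1 (mem_filter.1 hu).2))

namespace Pat
variable {z : G} {φ : M →* G} {ε : Bool → Bool} (h : Pat z φ ε)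
include h

theorem FF_rep {a : M} (ha : cls a < 8) (t : G) :
    FF t (φ a) z = FF t (φ (rep (cls a))) z ∧ FF t z (φ a) = FF t z (φ (rep (cls a))) := by
  rw [← FF_conj t (φ (rep _)) z (φ (wit a)), ← FF_conj t z (φ (rep _)) (φ (wit a)),
    conj_comm' (h.comm _).symm, h.conj_iff.2 ((cls_spec a).2.2 ha)]
  exact ⟨rfl, rfl⟩

theorem FF_ne {u s : G} (hu : Iv u) (hs : Iv s) (e : FF (φ t0) u s ≠ 0) : u * s = s * u := by
  obtain ⟨v, hv⟩ := Set.nonempty_of_ncard_ne_zero e
  exact (iv_comm hu (h.iv_of' hv.1) hs hv.2).1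

theorem FF_z {k : ℕ} (hk : k < 8) (hz : dz ε (rep k) = true) : FF (φ t0) (φ (rep k)) z = cZ ε k := by
  have iu : Iv (φ (rep k)) := h.iv_iff.2 (by rwa [cls_rep k hk])
  rw [← cZ_f ε k hk hz]
  refine h.ncard_list _ _ (nodup_IL.filter _)
    (fun v hv => (iv_comm iu (h.iv_of' hv.1) h.iv hv.2).2) fun a => ?_
  rw [h.dt_iff, List.mem_filter, Bool.and_eq_true, mem_IL]
  have d8 : dt ε a = true → cls a < 8 ∧ ¬ cls a < 4 := fun e => by
    simp only [dt, dz, Bool.and_eq_true, Nat.blt_eq, Bool.not_eq_true', Bool.or_eq_false_iff] at e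
    exact ⟨e.1, fun e1 => by simp [← Nat.blt_eq, e.2.1.1] at e1⟩
  have km : k ∈ [0, 1, 2, 3, 6, 7] := by
    simp only [dz, cls_rep k hk] at hz
    interval_cases k <;> simp_all [Nat.blt, Nat.beq]
  refine ⟨fun e => ⟨(d8 e.1).1, e.1, ?_⟩, fun e => ⟨e.2.1, ?_⟩⟩
  all_goals
    have o := (o24_f k km a (mem_IL.2 (d8 (by first | exact e.1 | exact e.2.1)).1)).resolve_left
      (d8 (by first | exact e.1 | exact e.2.1)).2
    have key : z ∈ zpowers (φ (rep k) * φ a) ↔ zin (rep k * a) = true := by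
      rw [← map_mul]
      generalize rep k * a = y at o
      rw [zin_iff h.iv (by
        rw [← map_pow, ← map_pow, h.eq_one, ← of_decide_eq_true o]
        simp only [pow_succ, pow_zero, one_mul, mul_assoc])]
      simp only [← map_pow, ← h.map_z, h.eq_iff, zin, Bool.or_eq_true, decide_eq_true_eq, or_assoc]
      simp only [pow_succ, pow_zero, one_mul, mul_assoc]
  exacts [key.1 e.2, key.2 e.2.2]

theorem formula [Finite G] : Nat.card G = Nat.card (XX φ) * ((if ε false = ε true then 4788 else 22260) +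
    42 * ff z φ t0 + 84 * ff z φ tp + (if ε false then 0 else 168 * ff z φ (cc false)) +
    (if ε true then 0 else 168 * ff z φ (cc true))) := by
  classical
  have := Fintype.ofFinite G
  have e1 : Nat.card {y : G // IsConj (φ t0) y} = ∑ s with Iv s, FF (φ t0) z s := by
    rw [Nat.card_eq_fintype_card, Fintype.card_subtype]
    have ev : ∀ v, IsConj (φ t0) v → Iv ((z * v) ^ (orderOf (z * v) / 2)) := fun v hv => by
      have := (Invol.half_pow_central h.iv.2 (h.iv_of' hv).2 (Nat.not_odd_iff_even.1 fun o =>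
        h.not_both (Invol.isConj_of_odd h.iv.2 (h.iv_of' hv).2 o) hv)).1
      exact ⟨Invol.ne_one_of_orderOf_two this, Invol.mul_self_of_orderOf_two this⟩
    rw [card_eq_sum_card_fiberwise (f := fun v => (z * v) ^ (orderOf (z * v) / 2))
      (t := univ.filter Iv) fun v hv => by simpa using ev v (by simpa using hv)]
    refine sum_congr rfl fun s hs => ?_
    rw [FF, ← Set.ncard_coe_finset]
    congr 1
    ext v
    simp only [coe_filter, mem_filter, mem_univ, true_and, Set.mem_ofPred_eq]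
    exact and_congr_right fun hv => ⟨fun e => e ▸ pow_mem (mem_zpowers _) _,
      iv_unique (ev v hv) (mem_filter.1 hs).2 (pow_mem (mem_zpowers _) _)⟩
  have e2 : ∑ s with Iv s, FF (φ t0) z s =
      ∑ s with IsConj z s, FF (φ t0) z s + ∑ s with IsConj (φ t0) s, FF (φ t0) z s := by
    rw [← sum_union (disjoint_filter.2 fun s _ => h.not_both), ← filter_or]
    exact sum_congr (filter_congr fun s _ => ⟨h.all, fun e => e.elim h.iv_of h.iv_of'⟩) fun _ _ => rfl
  have e3 : ∑ s with IsConj z s, FF (φ t0) z s = ∑ u with IsConj z u, FF (φ t0) u z := by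
    refine Nat.eq_of_mul_eq_mul_left (Nat.card_pos (α := centralizer ({z} : Set G))) ?_
    rw [← sum_conj z (FF (φ t0) z), ← sum_conj z (FF (φ t0) · z), ← Equiv.sum_comp (Equiv.inv G)]
    refine sum_congr rfl fun g _ => ?_
    rw [← FF_conj _ _ _ g]
    simp [mul_assoc]
  have e4 : ∑ u with IsConj z u, FF (φ t0) u z = if ε false = ε true then 4788 else 22260 := by
    rw [h.sum_list _ _ (IL.filter (dz ε)) (nodup_IL.filter _) (fun u hu => h.FF_ne (h.iv_of hu) h.iv)
      fun a => by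
        rw [List.mem_filter, ← h.dz_iff, mem_IL, ← h.iv_iff]
        exact ⟨fun e => ⟨h.iv_of e, e⟩, fun e => e.2⟩, ← aZ_f]
    refine congrArg List.sum (List.map_congr_left fun a ha => ?_)
    rw [List.mem_filter, mem_IL, ← h.dz_iff] at ha
    rw [(h.FF_rep ha.1 _).1, h.FF_z ha.1 ((h.dz_iff _).1 (ha.2.trans (h.isConj_rep ha.1).symm))]
  have e5 : ∑ s with IsConj (φ t0) s, FF (φ t0) z s = 42 * ff z φ t0 + 84 * ff z φ tp +
      (if ε false then 0 else 168 * ff z φ (cc false)) + (if ε true then 0 else 168 * ff z φ (cc true)) := by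
    rw [h.sum_list _ _ (IL.filter (dt ε)) (nodup_IL.filter _)
      (fun u hu e => (h.FF_ne h.iv (h.iv_of' hu) e).symm) fun a => by
        rw [List.mem_filter, ← h.dt_iff, mem_IL, ← h.iv_iff]
        exact ⟨fun e => ⟨h.iv_of' e, e⟩, fun e => e.2⟩,
      List.map_congr_left (g := fun a => FF (φ t0) z (φ (rep (cls a)))) fun a ha =>
        (h.FF_rep (mem_IL.1 (List.mem_filter.1 ha).1) _).2,
      sum_cls ε (fun k => FF (φ t0) z (φ (rep k))), cnt_cls.1, cnt_cls.2.1, cnt_cls.2.2.1, cnt_cls.2.2.2]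
    rfl
  rw [← Invol.card_conj_mul_card_centralizer (φ t0), e1, e2, e3, e4, e5, mul_comm]
  simp only [add_assoc]

end Pat

end Cfsg.Agent.Lib.He
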