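import Cfsg.Agent.Lib.He.Pat
import Cfsg.Agent.Lib.He.Gen
import Cfsg.Agent.S0215

set_option autoImplicit false
set_option maxRecDepth 100000
set_option synthInstance.maxSize 2000

/-! # Determination of the fusion pattern -/

namespace Cfsg.Agent.Lib.He

open Subgroup Cfsg.Agent.Lib.Core
open Cfsg.Agent.Lib.Root.J1 (Iv conj_comm' comm_of_conj comm_conj card_eq_orbit_mul card_eq_ncard)
open Cfsg.Agent.Lib.Jk (mc back conj_inj ncard_conj)

variable {G : Type*} [Group G]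

theorem V_facts : ∀ i, (∀ a ∈ IL, (cls a = 0 ∨ cls a = cls (aa i) ↔ inV i a = true) ∧
    ((∀ v ∈ VL i, a * v = v * a) → inV i a = true)) ∧ (∀ a ∈ VL i, a = 1 ∨ cls a < 8) ∧
    (∀ b ∈ VL i, aa (!i) * b * (aa (!i) * b) ≠ aa i) ∧
    (∃ b ∈ VL i, b ≠ 1 ∧ aa (!i) * b * (aa (!i) * b) = z0) ∧ aa i ∈ VL i ∧ aa i ≠ 1 ∧ aa i ≠ z0 ∧
    aa (!i) ∉ VL i ∧ aa i * aa (!i) = aa (!i) * aa i ∧ aa (!i) * aa (!i) = 1 ∧ inV i 1 = true := by
  decide +kernel

namespace Emb
variable {z : G} {φ : M →* G} (h : Emb z φ)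
include h

theorem mask {s : G} (hs : Iv s) :
    ∃ n : Fin 256, ∀ a, n.val.testBit (cls a) = true ↔ IsConj s (φ a) := by
  classical
  refine ⟨⟨Nat.ofBits fun k : Fin 8 => decide (IsConj s (φ (rep k))), Nat.ofBits_lt_two_pow _⟩,
    fun a => ?_⟩
  rcases lt_or_ge (cls a) 8 with e | e
  · simp only [Nat.testBit_ofBits_lt _ _ e, decide_eq_true_eq]
    exact ⟨fun e1 => e1.trans (h.isConj_rep e), fun e1 => e1.trans (h.isConj_rep e).symm⟩
  · simp only [Nat.testBit_ofBits_ge _ _ e, Bool.false_eq_true, false_iff]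
    intro e1
    obtain ⟨g, hg⟩ := isConj_iff.1 e1
    exact absurd (h.iv_iff.1 (hg ▸ hs.conj g)) (by omega)

variable [Finite G]

theorem deg_eq {s : G} {n : ℕ} (hn : ∀ a, n.testBit (cls a) = true ↔ IsConj s (φ a)) {i : Bool} {y : M}
    (hy : inU i y = true) (hz : IsConj z (φ y)) : deg n i y = deg n i z0 := by
  have k : ∀ y, deg n i y = {w | w ∈ UU φ i ∧ IsConj s w ∧ IsConj s (φ y * w)}.ncard := fun y =>
    (h.ncard_list _ _ ((nodup_UL i).1.filter _) (fun _ hg => U_comm hg.1 (h.zU i)) fun a => by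
      simp only [h.memU', inU_iff, List.mem_filter, Bool.and_eq_true, hn, map_mul]).symm
  obtain ⟨g, hg⟩ := isConj_iff.1 hz
  obtain ⟨c, hc, e⟩ := h.ctrl (h.zU i) (hg ▸ h.memU'.2 hy)
  rw [k, k, h.map_z, ← hg, ← e]
  exact (ncard_conj c _ _ fun w => by
    rw [conj_mul, isConj_cj, isConj_cj, ← mem_normalizer_iff.1 hc]).symm

theorem not_b {b : M} (hb : ∀ i, inU i b = true) (h4 : 4 ≤ cls b) : ¬ IsConj z (φ b) := fun e => by
  obtain ⟨g, hg⟩ := isConj_iff.1 e
  obtain ⟨n, hn, e1⟩ := h.ctrl2 h.zU (g := g) fun i => hg ▸ h.memU'.2 (hb i)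
  obtain ⟨u, hu, e2⟩ := memU.1 (conj_mem_of_mem_normalizer (hn false) (x := φ (uu false))
    (h.memU'.2 (by decide +kernel)))
  obtain ⟨w, hw, e3⟩ := memU.1 (conj_mem_of_mem_normalizer (hn true) (x := φ (uu true))
    (h.memU'.2 (by decide +kernel)))
  have : u * w * (u * w) = b := h.inj (by
    rw [← hg, ← e1, ← h.map_z, ← (by decide +kernel : uu false * uu true * (uu false * uu true) = z0)]
    simp only [map_mul, e2, e3, conj_mul])
  rcases this ▸ comm_UU u hu w hw with e4 | e4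
  · exact (h.iv_of e).1 (h.eq_one.2 e4)
  · omega

variable [IsSimpleGroup G]

theorem not_cen : z ∉ center G := fun h4 => by
  have h5 : (zpowers z).Normal := ⟨fun n hn g => by
    obtain ⟨k, rfl⟩ := hn
    rw [mem_center_iff.1 (zpow_mem h4 k) g]; simp⟩
  rcases h5.eq_bot_or_eq_top with e1 | e1
  · exact h.iv.1 (zpowers_eq_bot.1 e1)
  · have := card_le_card_group (centralizer ({z} : Set G))
    rw [h.card_cent, ← card_top, ← e1, Nat.card_zpowers, h.iv.orderOf] at this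
    omega

theorem not_iso (hD : ∀ a, IsConj z (φ a) → φ a = z) : False := by
  obtain ⟨P, hP⟩ := h.sylT.exists_sylow_top
  obtain ⟨N, hN, h1, h3⟩ := S0215.result P z h.iv.orderOf (hP.ge (U_le_T _ (h.zU false))) fun g hg => by
    obtain ⟨a, -, e⟩ := hP.le hg
    rw [← e]; exact hD a (cj e.symm)
  rcases hN.eq_bot_or_eq_top with rfl | rfl
  · exact h.not_cen (mem_center_iff.2 fun g => by
      calc g * z = (z * g * z⁻¹ * g⁻¹) * (g * z) := by rw [mem_bot.1 (h3 g), one_mul]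
        _ = z * g := by group)
  · rw [card_top] at h1
    exact (Nat.not_even_iff_odd.2 h1) (even_iff_two_dvd.2 (h.iv.orderOf ▸ orderOf_dvd_natCard z))

theorem not_V (i : Bool) (hD : ∀ a, IsConj z (φ a) ↔ a ∈ VL i ∧ a ≠ 1) : False := by
  obtain ⟨f1, -, f3, ⟨b, f4, f5, f6⟩, f7, f8, f9, f10, f11, f12, -⟩ := V_facts i
  have L1 : ∀ {u y w}, IsConj z u → IsConj z y → IsConj z w → y * u = u * y → w * u = u * w →
      y * w = w * y ∧ (y * w = 1 ∨ IsConj z (y * w)) := fun {u y w} hu hy hw e1 e2 => by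
    obtain ⟨g, rfl⟩ := isConj_iff.1 hu
    obtain ⟨a, ha⟩ := h.surj _ (back e1)
    obtain ⟨c, hc⟩ := h.surj _ (back e2)
    obtain rfl : g * φ a * g⁻¹ = y := by rw [ha]; group
    obtain rfl : g * φ c * g⁻¹ = w := by rw [hc]; group
    rw [isConj_cj, hD] at hy hw
    obtain ⟨k1, k2⟩ := (VL_mul i a hy.1).2 c hw.1
    rw [conj_mul, conj_mul, isConj_cj, ← map_mul, ← map_mul, k2, hD, ← k2, ← inV_iff]
    by_cases e : a * c = 1 <;> simp [e, k1]
  have L2 : ∀ {u w}, IsConj z u → IsConj z w → u * w ≠ w * u → Odd (orderOf (u * w)) :=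
    fun {u w} hu hw e => by
    by_contra e1
    obtain ⟨m, -, m2, c1, c2, d⟩ := dih_ex (mem_top _) (mem_top _) (h.iv_of hu) (h.iv_of hw) e1
    have := (L1 hu hu (d.elim (fun d => hu.trans d.1.isConj) fun d => hw.trans d.1.isConj) rfl
      (by rw [mul_assoc, c1])).2
    rw [(h.iv_of hu).cancel] at this
    exact e (L1 (this.resolve_left m2.1) hu hw c1.symm c2.symm).1
  have zz := IsConj.refl z
  have hv := (hD _).2 ⟨f7, f8⟩
  have C1 : ∀ {u}, IsConj z u → u * φ (aa (!i)) = φ (aa (!i)) * u → u * z = z * u := fun {u} hu e => by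
    by_contra e1
    obtain ⟨k, hk⟩ := Invol.exists_pow_conj_of_odd h.iv.2 (h.iv_of hu).2 (L2 zz hu (Ne.symm e1))
    obtain ⟨l, hl⟩ := Invol.exists_pow_conj_of_odd (h.iv_of hv).2 (h.iv_of hu).2 (L2 hv hu fun e2 =>
      e1 (L1 hv hu zz e2.symm (h.comm _).symm).1)
    have c : Commute (((φ (aa i) * u) ^ l)⁻¹ * (z * u) ^ k) (φ (aa (!i))) :=
      ((Commute.mul_left (h.comm_iff.2 f11) e).pow_left l).inv_left.mul_left
        ((Commute.mul_left (h.comm _).symm e).pow_left k)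
    have e2 : ((φ (aa i) * u) ^ l)⁻¹ * (z * u) ^ k * z * (((φ (aa i) * u) ^ l)⁻¹ * (z * u) ^ k)⁻¹ =
        φ (aa i) := by
      calc _ = ((φ (aa i) * u) ^ l)⁻¹ * ((z * u) ^ k * z * ((z * u) ^ k)⁻¹) * (φ (aa i) * u) ^ l := by group
        _ = _ := by rw [hk]; nth_rewrite 2 [← hl]; group
    generalize ((φ (aa i) * u) ^ l)⁻¹ * (z * u) ^ k = n at *
    have hb := isConj_cj (g := n).2 ((hD b).2 ⟨f4, f5⟩)
    obtain ⟨d, hc⟩ := h.surj _ (L1 hv hb zz (e2 ▸ comm_conj n (h.comm b)) (h.comm _).symm).1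
    refine f3 d ((hD d).1 (hc ▸ hb)).1 (h.inj ?_)
    rw [← e2, ← h.map_z, ← f6]
    simp only [map_mul, hc, ← conj_mul, conj_comm' c.symm]
  have s2 : φ (aa (!i)) * φ (aa (!i)) = 1 := by rw [← map_mul, f12, map_one]
  have C2 : ∀ u, IsConj z u → u * z = z * u := fun u hu => by
    by_contra e
    have k : ∀ w, IsConj z w → w * u = u * w → ∃ m, Iv m ∧ Commute m w ∧ Commute m (φ (aa (!i))) ∧
        IsConj z (φ (aa (!i)) * m) := fun w hw e1 => by
      obtain ⟨m, -, m2, c1, c2, d⟩ := dih_ex (mem_top _) (mem_top _) (h.iv_of hw)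
        ⟨fun e => by cases i <;> exact absurd (h.eq_one.1 e) (by decide +kernel), s2⟩ fun e2 =>
        f10 ((hD _).1 (hw.trans (Invol.isConj_of_odd (h.iv_of hw).2 s2 e2))).1
      refine ⟨m, m2, c1, c2, hw.trans (d.resolve_left fun d => ?_).2.isConj⟩
      have := (L1 hw hw (hw.trans d.1.isConj) rfl (by rw [mul_assoc, c1])).2
      rw [(h.iv_of hw).cancel] at this
      have := this.resolve_left m2.1
      exact e (L1 hw hu zz e1.symm (L1 this zz hw (C1 this c2).symm c1.symm).1).1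
    obtain ⟨m, im, c1, c2, d⟩ := k u hu rfl
    have k2 : ∀ w, IsConj z w → w * u = u * w → m * w = w * m := fun w hw e1 => by
      obtain ⟨m', im', c1', c2', d'⟩ := k w hw e1
      have := (L1 zz d d' (C1 d (by rw [mul_assoc, c2])) (C1 d' (by rw [mul_assoc, c2'])))
      rw [← c2, mul_assoc, ← mul_assoc (φ _), s2, one_mul] at this
      rcases this.2 with e2 | e2
      · rw [eq_inv_of_mul_eq_one_left e2, im'.inv]; exact c1'
      have e3 : m * m' * u * (m * m')⁻¹ * u = u * (m * m' * u * (m * m')⁻¹) := by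
        have := comm_conj m (L1 hw (isConj_cj (g := m').2 hu) hu
          (by simpa only [conj_comm' c1'.symm] using comm_conj m' e1.symm) e1.symm).1
        rw [conj_comm' c1.symm] at this
        simpa [mul_assoc] using this
      have yz := C1 e2 (c2.mul_left c2')
      generalize m * m' = y at *
      have e4 : u * y ≠ y * u := fun e4 => e (L1 e2 hu zz e4 yz.symm).1
      have e5 : (u * y) ^ 4 = 1 := by
        rw [(h.iv_of e2).inv] at e3
        calc _ = u * (y * u * y) * u * y * u * y := by simp only [pow_succ, pow_zero, one_mul, mul_assoc]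
          _ = 1 := by
            rw [← e3]; simp only [mul_assoc, (h.iv_of hu).cancel, (h.iv_of e2).cancel, (h.iv_of e2).2, one_mul]
      have := (Nat.Coprime.pow_right 2 (Nat.coprime_two_right.2 (L2 hu e2 e4))).eq_one_of_dvd
        (orderOf_dvd_of_pow_eq_one e5)
      rw [orderOf_eq_one_iff] at this
      exact absurd (this.trans (mul_eq_one_comm.1 this).symm) e4
    obtain ⟨g, rfl⟩ := isConj_iff.1 hu
    obtain ⟨a, ha⟩ := h.surj _ (back c1)
    have ia : cls a < 8 := h.iv_iff.1 (by rw [ha]; simpa using im.conj g⁻¹)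
    have hm : IsConj z m := ((hD a).2 ⟨(inV_iff _ _).1 ((f1 a (mem_IL.2 ia)).2 fun v hv => by
      by_cases e : v = 1
      · simp [e]
      rw [← h.comm_iff, ha]
      exact back (k2 _ (isConj_cj.2 ((hD v).2 ⟨hv, e⟩)) (comm_conj g (h.comm v)))),
      ((cls_spec a).1.1 ia).1⟩).trans (cj (c := g) (by rw [ha]; group))
    exact e (L1 hm hu zz c1.symm (C1 hm c2).symm).1
  have hN : (centralizer {u | IsConj z u}).Normal := ⟨fun n hn g => mem_centralizer_iff.2 fun u hu => by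
    have := comm_conj g (mem_centralizer_iff.1 hn (g⁻¹ * u * g⁻¹⁻¹) (isConj_cj.2 hu))
    simpa [mul_assoc] using this⟩
  rcases hN.eq_bot_or_eq_top with e | e
  · exact h.iv.1 (mem_bot.1 (e ▸ mem_centralizer_iff.2 C2))
  · exact h.not_cen (mem_center_iff.2 fun g => (mem_centralizer_iff.1 (e ▸ mem_top g) z zz).symm)

theorem exists_pat : ∃ ε, Pat z φ ε := by
  obtain ⟨n, hn⟩ := h.mask h.iv
  have b4 : ¬ IsConj z (φ t0) := h.not_b (by decide +kernel) (by decide +kernel)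
  have b5 : ¬ IsConj z (φ tp) := h.not_b (by decide +kernel) (by decide +kernel)
  have bit : ∀ {s} {n : ℕ}, (∀ a, n.testBit (cls a) = true ↔ IsConj s (φ a)) → ∀ k < 8,
      (n.testBit k = true ↔ IsConj s (φ (rep k))) := fun hn k hk => by rw [← hn, cls_rep k hk]
  have hV : ∀ i, n.val = (cond i 5 3) → False := fun i e => h.not_V i fun a => by
    obtain ⟨f1, f2, -⟩ := V_facts i
    rw [← hn, e, (by decide +kernel : ∀ i, ∀ k ≤ 8, (cond i 5 3 : ℕ).testBit k = true ↔
      k = 0 ∨ k = cls (aa i)) i _ (cls_spec a).2.1]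
    have c : ∀ i, cls (aa i) < 8 := by decide +kernel
    constructor
    · intro e1
      have : cls a < 8 := by rcases e1 with e1 | e1 <;> simp [e1, c]
      exact ⟨(inV_iff _ _).1 ((f1 a (mem_IL.2 this)).1.1 e1), ((cls_spec a).1.1 this).1⟩
    · exact fun e1 => (f1 a (mem_IL.2 ((f2 a e1.1).resolve_left e1.2))).1.2 ((inV_iff _ _).2 e1.1)
  have n0 := (bit hn 0 (by norm_num)).2 (h.map_z ▸ IsConj.refl _)
  have n4 := Bool.eq_false_iff.2 fun e => b4 ((bit hn 4 (by norm_num)).1 e)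
  have n5 := Bool.eq_false_iff.2 fun e => b5 ((bit hn 5 (by norm_num)).1 e)
  rcases deg_D n n0 n4 n5 (fun i y hy e => h.deg_eq hn ((by decide +kernel :
    ∀ i, ∀ y ∈ [aa false, aa true, a3, cc i], inU i y = true) i y hy) ((hn y).1 e)) with e | e | e | e
  · refine (h.not_iso fun a ha => ?_).elim
    have e1 := (hn a).2 ha
    have e2 := (cls_spec a).2.2 (h.iv_iff.1 (h.iv_of ha))
    rw [e] at e1
    rw [(by decide +kernel : ∀ k ≤ 8, (1 : ℕ).testBit k = true → k = 0) _ (cls_spec a).2.1 e1] at e2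
    rw [← e2, map_mul, map_mul, map_inv]
    exact (congrArg (fun x => _ * x * _) h.map_z).trans (conj_comm' (h.comm _).symm)
  · exact (hV false e).elim
  · exact (hV true e).elim
  have dz_iff : ∀ a, IsConj z (φ a) ↔ dz (fun i => n.val.testBit (cond i 7 6)) a = true := fun a => by
    rw [← hn, dz]
    have := (cls_spec a).2.1
    have n8 : n.val.testBit 8 = false := Nat.testBit_lt_two_pow n.2
    generalize cls a = k at *
    interval_cases k <;> simp [*]
  have dE : ∀ s, Iv s → ¬ IsConj z s → (IsConj s (φ t0) ↔ IsConj s (φ tp)) ∧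
      ∀ i, IsConj s (φ (cc i)) → IsConj s (φ t0) := fun s hs e1 => by
    obtain ⟨m, hm⟩ := h.mask hs
    have k : ∀ k < 4, m.val.testBit k = false := fun k hk => Bool.eq_false_iff.2 fun e2 =>
      e1 (((dz_iff _).2 (by simp [dz, cls_rep k (by omega), hk])).trans ((bit hm k (by omega)).1 e2).symm)
    obtain ⟨d1, d2⟩ := deg_E m (Nat.eq_of_testBit_eq fun j => by
      rw [show 16 = 2 ^ 4 from rfl, Nat.testBit_mod_two_pow]
      by_cases e : j < 4 <;> simp [e, k]) fun i => h.deg_eq hm (by cases i <;> decide +kernel)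
        ((bit hn 3 (by norm_num)).1 e.2.2)
    exact ⟨(bit hm 4 (by norm_num)).symm.trans (d1 ▸ bit hm 5 (by norm_num)),
      fun i e2 => (bit hm 4 (by norm_num)).1 (d2 i ((hm _).2 e2))⟩
  refine ⟨_, h, dz_iff, fun a => ?_⟩
  have it : Iv (φ t0) := h.iv_iff.2 (by decide +kernel)
  rw [dt, Bool.and_eq_true, Bool.not_eq_true', ← Bool.not_eq_true, ← dz_iff, Nat.blt_eq]
  refine ⟨fun e1 => ⟨?_, fun e2 => b4 (e2.trans e1.symm)⟩, fun e1 => ?_⟩
  · obtain ⟨g, hg⟩ := isConj_iff.1 e1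
    exact h.iv_iff.1 (hg ▸ it.conj g)
  have e2 := h.isConj_rep e1.1
  have e3 : ¬ cls a < 4 := fun e3 => e1.2 ((dz_iff a).2 (by simp [dz, e3]))
  have e4 := dE _ (h.iv_iff.2 e1.1) e1.2
  have e5 := e1.1
  generalize cls a = k at *
  interval_cases k
  exacts [e2, (e4.1.2 e2.symm).symm, (e4.2 false e2.symm).symm, (e4.2 true e2.symm).symm]

end Emb

end Cfsg.Agent.Lib.He
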