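import Cfsg.Agent.Lib.He.Pat
import Cfsg.Agent.Lib.He.Gen
import Cfsg.Agent.Lib.He.F2

set_option autoImplicit false
set_option maxRecDepth 100000

/-! # Points and lines in the centraliser of the second involution -/

namespace Cfsg.Agent.Lib.He

open Subgroup Cfsg.Agent.Lib.Core
open Cfsg.Agent.Lib.Root.J1 (Iv conj_comm' comm_of_conj comm_conj card_eq_orbit_mul card_eq_ncard)
open Cfsg.Agent.Lib.Jk (mc back conj_inj ncard_conj)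

variable {G : Type*} [Group G]

theorem cg_cg (g k : G) (K : Subgroup G) : cg g (cg k K) = cg (g * k) K := map_conj_map_conj K g k

theorem cg_one (K : Subgroup G) : cg 1 K = K := map_conj_one K

theorem cg_norm {g : G} {K : Subgroup G} : cg g K = K ↔ g ∈ normalizer (K : Set G) := map_conj_eq_iff

theorem cg_mem {g x : G} {K : Subgroup G} (hx : x ∈ K) : g * x * g⁻¹ ∈ cg g K := conj_mem_map_conj.2 hx

theorem mem_cg {g x : G} {K : Subgroup G} : x ∈ cg g K ↔ g⁻¹ * x * g ∈ K := mem_map_conj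

/-- incident pairs -/
def Fl (φ : M →* G) (i : Bool) (A B : Subgroup G) : Prop :=
  ∃ x ∈ XX φ, cg x (UU φ i) = A ∧ cg x (UU φ (!i)) = B

theorem Fl.symm {φ : M →* G} {i : Bool} {A B : Subgroup G} (h : Fl φ (!i) A B) : Fl φ i B A := by
  obtain ⟨x, hx, e1, e2⟩ := h
  exact ⟨x, hx, by simpa using e2, e1⟩

theorem Fl.symm' {φ : M →* G} {i : Bool} {A B : Subgroup G} (h : Fl φ i A B) : Fl φ (!i) B A :=
  Fl.symm (by simpa using h)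

theorem Fl.cg {φ : M →* G} {i : Bool} {A B : Subgroup G} (h : Fl φ i A B) {y : G} (hy : y ∈ XX φ) :
    Fl φ i (cg y A) (cg y B) := by
  obtain ⟨x, hx, rfl, rfl⟩ := h
  exact ⟨y * x, mul_mem hy hx, (cg_cg ..).symm, (cg_cg ..).symm⟩

theorem Fl.self {φ : M →* G} (i : Bool) {x : G} (hx : x ∈ XX φ) :
    Fl φ i (He.cg x (UU φ i)) (He.cg x (UU φ (!i))) := ⟨x, hx, rfl, rfl⟩

theorem Fl.base {φ : M →* G} {i : Bool} {B : Subgroup G} (h : Fl φ i (UU φ i) B) :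
    ∃ x ∈ NU φ i ⊓ XX φ, He.cg x (UU φ (!i)) = B :=
  let ⟨x, hx, e1, e2⟩ := h; ⟨x, ⟨cg_norm.1 e1, hx⟩, e2⟩

theorem all_bool {P : Bool → Prop} (i : Bool) (h1 : P i) (h2 : P (!i)) (j : Bool) : P j := by
  cases i <;> cases j <;> assumption

namespace Pat
variable {z : G} {φ : M →* G} {ε : Bool → Bool} (h : Pat z φ ε)
include h

theorem dz4 {a : M} (ha : cls a < 4) : IsConj z (φ a) := (h.dz_iff a).2 (by simp [dz, ha])

theorem ndz {a : M} (ha : dz ε a = false) : ¬ IsConj z (φ a) := by rw [h.dz_iff, ha]; simp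

theorem zX : z ∈ XX φ := mc.2 (h.comm _).symm

theorem UX (i : Bool) : UU φ i ≤ XX φ := fun _ hy => mc.2 (Emb.U_comm hy (h.tU i))

theorem t_cg {x : G} (hx : x ∈ XX φ) (i : Bool) : φ t0 ∈ cg x (UU φ i) :=
  conj_comm' (mc.1 hx).symm ▸ cg_mem (h.tU i)

theorem cgX {x : G} (hx : x ∈ XX φ) (i : Bool) : cg x (UU φ i) ≤ XX φ :=
  map_conj_le_iff.2 fun _ hy => mul_mem (mul_mem hx (h.UX i hy)) (inv_mem hx)

theorem I_X {a : G} (ha : Cj (XX φ) z a) : a ∈ XX φ := by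
  obtain ⟨x, hx, rfl⟩ := ha; exact mul_mem (mul_mem hx h.zX) (inv_mem hx)

theorem I_iv {a : G} (ha : Cj (XX φ) z a) : Iv a := h.iv_of ha.isConj

theorem I_t {a : G} (ha : Cj (XX φ) z a) : ¬ IsConj z (a * φ t0) := by
  obtain ⟨x, hx, rfl⟩ := ha
  rw [← conj_comm' (mc.1 hx).symm, conj_mul, isConj_cj]
  have := h.ndz (v_dz ε).2.2.1
  rwa [map_mul, h.map_z] at this

variable [Finite G]

theorem pt_s {i : Bool} {s u g : G} (hs : s ∈ UU φ i) (hu : IsConj s u) (h1 : u ∈ cg g (UU φ i)) :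
    ∃ k, cg k (UU φ i) = cg g (UU φ i) ∧ k * s * k⁻¹ = u := by
  obtain ⟨c, hc⟩ := isConj_iff.1 (hu.trans (cj (c := g⁻¹) rfl))
  rw [inv_inv] at hc
  obtain ⟨n, hn, e⟩ := h.ctrl hs (hc ▸ mem_cg.1 h1)
  refine ⟨g * n, by rw [← cg_cg, cg_norm.2 hn], ?_⟩
  calc _ = g * (n * s * n⁻¹) * g⁻¹ := by group
    _ = u := by rw [e, hc]; group

theorem pt_X {i : Bool} {g : G} (h1 : φ t0 ∈ cg g (UU φ i)) :
    ∃ x ∈ XX φ, cg x (UU φ i) = cg g (UU φ i) :=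
  let ⟨k, e1, e2⟩ := h.pt_s (h.tU i) (IsConj.refl _) h1; ⟨k, mc.2 (comm_of_conj e2).symm, e1⟩

theorem uniq {i : Bool} {u g k : G} (hu : IsConj z u) (h1 : u ∈ cg g (UU φ i))
    (h2 : φ t0 ∈ cg g (UU φ i)) (h3 : u ∈ cg k (UU φ i)) (h4 : φ t0 ∈ cg k (UU φ i)) :
    cg g (UU φ i) = cg k (UU φ i) := by
  obtain ⟨g, e1, rfl⟩ := h.pt_s (h.zU i) hu h1
  obtain ⟨k, e2, e3⟩ := h.pt_s (h.zU i) hu h3
  rw [← e1] at h2 ⊢
  rw [← e2] at h4 ⊢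
  obtain ⟨a, ha⟩ := h.surj (k⁻¹ * g) (comm_of_conj (by
    calc _ = k⁻¹ * (g * z * g⁻¹) * k := by group
      _ = z := by rw [← e3]; group)).symm
  obtain ⟨s, hs, e⟩ := Emb.memU.1 (mem_cg.1 h2)
  have it : IsConj (φ t0) (φ s) := cj (c := g⁻¹) (by rw [e, inv_inv])
  rw [cg_eq_iff, ← ha, h.normU]
  refine (((uniq_pp i s hs).resolve_left fun e1 => h.not_both (h.dz4 e1) it).resolve_left
    fun e1 => (h.iv_of' it).1 (h.eq_one.2 e1)) _ (inU_conj.1 (h.memU'.1 ?_))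
  rw [map_mul, map_mul, map_inv, ha, e]
  convert mem_cg.1 h4 using 1; group

theorem uniqX {i : Bool} {u x y : G} (hu : IsConj z u) (hx : x ∈ XX φ) (hy : y ∈ XX φ)
    (h1 : u ∈ cg x (UU φ i)) (h3 : u ∈ cg y (UU φ i)) : cg x (UU φ i) = cg y (UU φ i) :=
  h.uniq hu h1 (h.t_cg hx i) h3 (h.t_cg hy i)

theorem uniq1 {i : Bool} {u x : G} (hu : IsConj z u) (hx : x ∈ XX φ)
    (h1 : u ∈ cg x (UU φ i)) (h3 : u ∈ UU φ i) : cg x (UU φ i) = UU φ i :=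
  (h.uniqX hu hx (one_mem _) h1 (by rwa [cg_one])).trans (cg_one _)

theorem pl {i : Bool} {y g k : G} (hg : g ∈ XX φ) (hk : k ∈ XX φ) (h1 : y ∈ cg g (UU φ i))
    (h3 : y ∈ cg k (UU φ (!i))) :
    ∃ c ∈ XX φ, Fl φ i (cg g (UU φ i)) (cg c (UU φ (!i))) ∧ y ∈ cg c (UU φ (!i)) := by
  have l : ∀ {j g}, g ∈ XX φ → y ∈ cg g (UU φ j) → cg g (UU φ j) ≤ centralizer {y} ⊓ XX φ :=
    fun {j g} hg hy => le_inf (by
      obtain ⟨y, hy, rfl⟩ := hy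
      exact map_conj_le_iff.2 fun w hw => mc.2 (comm_conj g (Emb.U_comm hw hy))) (h.cgX hg j)
  obtain ⟨S, hS, e⟩ := exists_isSyl_ge ((h.pU i).map _) (l hg h1)
  obtain ⟨c, hc, e1⟩ := hS.exists_conj_le ((h.pU (!i)).map _) (l hk h3)
  rw [map_conj_map_conj] at e1
  obtain ⟨n, hn⟩ := h.weak' hS.isPGroup
  have ck := mul_mem hc.2 hk
  obtain ⟨m, hm, e2⟩ := h.ctrl2 h.tU (g := n⁻¹) (all_bool i
    (by simpa using mem_cg.1 (hn _ _ e ▸ h.t_cg hg i)) (by simpa using mem_cg.1 (hn _ _ e1 ▸ h.t_cg ck (!i))))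
  refine ⟨c * k, ck, ⟨n * m, mc.2 (comm_of_conj ?_).symm, by rw [← cg_cg, cg_norm.2 (hm _), hn _ _ e],
    by rw [← cg_cg, cg_norm.2 (hm _), hn _ _ e1]⟩, ?_⟩
  · calc _ = n * (m * φ t0 * m⁻¹) * n⁻¹ := by group
      _ = _ := by rw [e2]; group
  · rw [← cg_cg, ← conj_comm' (mc.1 hc.1).symm]; exact cg_mem h3

theorem pl' {i : Bool} {y g k : G} (hy : IsConj z y) (hg : g ∈ XX φ) (hk : k ∈ XX φ)
    (h1 : y ∈ cg g (UU φ i)) (h3 : y ∈ cg k (UU φ (!i))) :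
    Fl φ i (cg g (UU φ i)) (cg k (UU φ (!i))) := by
  obtain ⟨c, hc, e1, e2⟩ := h.pl hg hk h1 h3
  rwa [h.uniqX hy hk hc h3 e2]

theorem cu {u w : G} (hu : IsConj z u) (uX : u ∈ XX φ) (hw : IsConj z w) (wX : w ∈ XX φ)
    (c : w * u = u * w) : ∃ i, ∃ x ∈ XX φ, u ∈ cg x (UU φ i) ∧ w ∈ cg x (UU φ i) := by
  obtain ⟨g, rfl⟩ := isConj_iff.1 hu
  obtain ⟨s, hs⟩ := h.surj _ (back (mc.1 uX).symm)
  have it : IsConj (φ t0) (φ s) := cj (c := g⁻¹) (by rw [hs, inv_inv])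
  have s8 := h.iv_iff.1 (h.iv_of' it)
  have e1 : g * φ (wit s) * φ (rep (cls s)) * (g * φ (wit s))⁻¹ = φ t0 := by
    calc _ = g * (φ (wit s) * φ (rep (cls s)) * (φ (wit s))⁻¹) * g⁻¹ := by group
      _ = _ := by rw [h.conj_iff.2 ((cls_spec s).2.2 s8), hs]; group
  have e2 : g * φ (wit s) * z * (g * φ (wit s))⁻¹ = g * z * g⁻¹ := by
    rw [mul_assoc g, h.comm]; group
  rw [← e2] at c ⊢
  generalize g * φ (wit s) = k at *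
  obtain ⟨b, hb⟩ := h.surj _ (back c)
  have ib : IsConj z (φ b) := hw.trans (cj (c := k⁻¹) (by rw [hb, inv_inv]))
  obtain ⟨i, i1, i2⟩ := cu_f ε _ s8 (Bool.eq_false_iff.2 fun e => h.not_both ((h.dz_iff _).2 e)
    (cj e1).symm) b (mem_IL.2 (h.iv_iff.1 (h.iv_of ib))) ((h.dz_iff b).1 ib)
    (h.comm_iff.1 (hb ▸ back (e1 ▸ mc.1 wX)))
  obtain ⟨x, hx, e⟩ := h.pt_X (g := k) (e1 ▸ cg_mem (h.memU'.2 i2))
  exact ⟨i, x, hx, e ▸ cg_mem (h.zU i), e ▸ mem_cg.2 (hb ▸ h.memU'.2 i1)⟩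

theorem L_le {i : Bool} (hi : ε i = false) : NU φ i ⊓ XX φ ≤ NJ φ :=
  (eq_of_le_of_card_ge (inf_le_inf_right _ (NJ_le φ i)) (by rw [h.card_XU, h.card_XJ, hi]; simp)).ge.trans
    inf_le_left

theorem L0 {i : Bool} (hi : ε i = false) {y k : G} (hk : k ∈ XX φ) (h1 : y ∈ UU φ i)
    (h3 : y ∈ cg k (UU φ (!i))) : y ∈ UU φ (!i) := by
  obtain ⟨c, -, e1, e2⟩ := h.pl (one_mem _) hk (by rwa [cg_one]) h3
  obtain ⟨x, hx, e⟩ := Fl.base (cg_one (UU φ i) ▸ e1)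
  rwa [← e, cg_norm.2 (mem_NJ.1 (h.L_le hi hx) _)] at e2

theorem memR {y : G} (hy : y ∈ XX φ ⊓ centralizer {z}) : ∃ a, inR a = true ∧ φ a = y := by
  obtain ⟨a, rfl⟩ := h.surj y (mc.1 hy.2)
  exact ⟨a, (inR_iff a).1 (h.comm_iff.1 (mc.1 hy.1)), rfl⟩

theorem R_le : XX φ ⊓ centralizer {z} ≤ TT φ := fun y hy => by
  obtain ⟨a, ha, rfl⟩ := h.memR hy
  simp only [inR, Bool.and_eq_true, Nat.blt_eq] at ha
  exact h.memT'.2 ha.1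

theorem R_le' : XX φ ⊓ centralizer {z} ≤ NJ φ ⊓ XX φ :=
  le_inf (h.R_le.trans (h.NJ_inf.ge.trans inf_le_left)) inf_le_left

theorem pR : IsPGroup 2 (XX φ ⊓ centralizer {z} : Subgroup G) := h.pT.to_le h.R_le

theorem sylR : IsSyl 2 (XX φ ⊓ centralizer {z}) (XX φ) := by
  have : IsSyl 2 (XX φ ⊓ centralizer {z}) (NJ φ ⊓ XX φ) := ⟨h.R_le', h.pR, by
    have := card_mul_relIndex h.R_le'
    rw [h.card_R, h.card_XJ] at this
    omega⟩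
  exact isSyl_of_isSyl_normalizer (this.mono (le_inf inf_le_left le_normalizer) fun n hn =>
    ⟨mem_NJ.2 fun i => cg_norm.1 (h.weak ((map_conj_le_of_le (le_inf (h.UX i)
      ((Emb.U_le_T i).trans h.T_le)) hn.2).trans h.R_le)), hn.1⟩)

theorem R_D {y : G} (hy : y ∈ XX φ ⊓ centralizer {z}) (hD : IsConj z y) : ∃ i, y ∈ UU φ i := by
  obtain ⟨i, x, hx, e1, e2⟩ := h.cu (IsConj.refl z) h.zX hD hy.1 (mc.1 hy.2)
  exact ⟨i, h.uniq1 (IsConj.refl z) hx e1 (h.zU i) ▸ e2⟩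

theorem xp {i : Bool} {y : G} (hy : IsConj z y) (h1 : y ∈ NU φ i ⊓ XX φ) :
    y ∈ UU φ i ∨ ∃ x ∈ NU φ i ⊓ XX φ, y ∈ cg x (UU φ (!i)) := by
  obtain ⟨c, hc, e⟩ := (h.sylR.mono (h.R_le'.trans (inf_le_inf_right _ (NJ_le φ i)))
    inf_le_right).exists_conj_le (Invol.isPGroup_zpowers_of_involution (h.iv_of hy).orderOf)
    (zpowers_le.2 h1)
  obtain ⟨j, hj⟩ := h.R_D (map_conj_le_iff.1 e y (mem_zpowers y)) (isConj_cj.2 hy)
  revert hj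
  refine all_bool (P := fun j => _ ∈ UU φ j → _) i (fun hj => .inl ?_) (fun hj => .inr ?_) j
  · exact (mem_normalizer_iff.1 hc.1 y).2 hj
  · exact ⟨c⁻¹, inv_mem hc, mem_cg.2 (by rwa [inv_inv])⟩

theorem I_U {i : Bool} {u : G} (hu : Cj (XX φ) z u) (h1 : u ∈ UU φ i) : Cj (NU φ i ⊓ XX φ) z u := by
  obtain ⟨x, hx, rfl⟩ := hu
  exact ⟨x, ⟨cg_norm.1 (h.uniq1 (cj rfl) hx (cg_mem (h.zU i)) h1), hx⟩, rfl⟩

theorem ev1 {a b : G} (ha : Cj (XX φ) z a) (hb : Cj (XX φ) z b) (c : b * a = a * b) (ne : b ≠ a) :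
    IsConj z (a * b) ∨ IsConj z (a * b * φ t0) := by
  obtain ⟨x, hx, rfl⟩ := ha
  obtain ⟨b, rfl⟩ : ∃ c, x * c * x⁻¹ = b := ⟨x⁻¹ * b * x, by group⟩
  rw [← conj_comm' (mc.1 hx).symm, conj_mul, conj_mul, isConj_cj, isConj_cj]
  rw [conj_mul, conj_mul, conj_inj] at c
  rw [Ne, conj_inj] at ne
  replace hb : Cj (XX φ) z b := hb.trans (Cj.symm ⟨x, hx, rfl⟩)
  obtain ⟨i, hi⟩ := h.R_D ⟨h.I_X hb, mc.2 c⟩ hb.isConj
  have k : ∀ w, φ w = b → (dz ε w = true → dz ε (w * t0) = true ∨ w = z0 ∨ dz ε (z0 * w) = true ∨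
      dz ε (z0 * w * t0) = true) → IsConj z (z * b) ∨ IsConj z (z * b * φ t0) := by
    rintro w rfl e
    simp only [← h.dz_iff, map_mul, h.map_z] at e
    exact ((e hb.isConj).resolve_left (h.I_t hb)).resolve_left fun e => ne (e ▸ h.map_z)
  cases e : ε i
  · obtain ⟨y, hy, rfl⟩ := hb
    obtain ⟨w, hw, e1⟩ := h.memZ (all_bool i hi (h.L0 e hy hi (cg_mem (h.zU _))))
    exact k w e1 (ev_Z ε w hw)
  · obtain ⟨w, hw, e1⟩ := Emb.memU.1 hi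
    exact k w e1 (ev_U ε i e w hw)

theorem ev2 {a b : G} (ha : Cj (XX φ) z a) (hb : Cj (XX φ) z b) (he : ¬ Odd (orderOf (a * b))) :
    ∃ m, IsConj z m ∧ m * a = a * m ∧ m * b = b * m ∧ ∀ K : Subgroup G, a * b ∈ K → φ t0 ∈ K → m ∈ K := by
  obtain ⟨m, m1, m2, c1, c2, d⟩ := dih_ex (h.I_X ha) (h.I_X hb) (h.I_iv ha) (h.I_iv hb) he
  have := h.ev1 ha (d.elim (fun d => ha.trans d.1) fun d => hb.trans d.1) (by rw [mul_assoc, c1])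
    (by simpa using m2.1)
  rw [(h.I_iv ha).cancel] at this
  rcases this with e | e
  · exact ⟨m, e, c1, c2, fun K e1 _ => zpowers_le.2 e1 m1⟩
  · exact ⟨_, e, c1.mul_left (mc.1 (h.I_X ha)).symm, c2.mul_left (mc.1 (h.I_X hb)).symm,
      fun K e1 e2 => mul_mem (zpowers_le.2 e1 m1) e2⟩

theorem even {x y : G} (hx : x ∈ XX φ) (hy : y ∈ XX φ)
    (he : ¬ Odd (orderOf (x * z * x⁻¹ * (y * z * y⁻¹)))) :
    ∃ i, Fl φ i (cg x (UU φ i)) (cg y (UU φ (!i))) := by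
  have ha : Cj (XX φ) z _ := ⟨x, hx, rfl⟩
  have hb : Cj (XX φ) z _ := ⟨y, hy, rfl⟩
  obtain ⟨m, hm, c1, c2, e⟩ := h.ev2 ha hb he
  have mX := e _ (mul_mem (h.I_X ha) (h.I_X hb)) (mc.2 rfl)
  obtain ⟨i, p, hp, e1, e2⟩ := h.cu hm mX ha.isConj (h.I_X ha) c1.symm
  obtain ⟨j, q, hq, e3, e4⟩ := h.cu hm mX hb.isConj (h.I_X hb) c2.symm
  rw [h.uniqX ha.isConj hp hx e2 (cg_mem (h.zU i))] at e1
  rw [h.uniqX hb.isConj hq hy e4 (cg_mem (h.zU j))] at e3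
  revert e3
  refine all_bool (P := fun j => _ ∈ cg y (UU φ j) → _) i (fun e3 => ⟨i, ?_⟩) (fun e3 => ⟨i, ?_⟩) j
  · rw [h.uniqX hm hx hy e1 e3]; exact Fl.self i hy
  · exact h.pl' hm hx hy e1 e3

theorem reg {i : Bool} {x y : G} (hx : x ∈ NU φ i ⊓ XX φ) (h1 : y ∈ UU φ (!i)) (h2 : y ∉ UU φ i)
    (hy : y ∈ normalizer (cg x (UU φ (!i)) : Set G)) : cg x (UU φ (!i)) = UU φ (!i) := by
  obtain ⟨s, hs, e⟩ := Emb.memU.1 (conj_mem_of_mem_normalizer hx.1 (h.zU i))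
  obtain ⟨y, h3, rfl⟩ := Emb.memU.1 h1
  have e1 : φ s ∈ cg x (UU φ (!i)) := e ▸ cg_mem (h.zU _)
  rcases (reg_f i y h3).resolve_left (mt h.memU'.2 h2) s hs with e2 | e2
  · exact h.uniq1 (cj e.symm) hx.2 e1 (h.memU'.2 e2)
  · refine h.uniq1 (h.dz4 e2.1) hx.2 ?_ (h.memU'.2 e2.2)
    have := mul_mem (conj_mem_of_mem_normalizer hy e1) e1
    rwa [← map_inv, inv_eq_of_mul_eq_one_right (UL_mul _ y h3).1, ← map_mul, ← map_mul, ← map_mul,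
      mul_assoc] at this

theorem fpf {ρ : G} (hρ : ρ ∈ NJ φ ⊓ XX φ) (hz : ρ * z ≠ z * ρ) (j : Bool) :
    ρ * φ (uu j) * ρ⁻¹ * φ (uu j) ∉ UU φ (!j) := fun e => by
  obtain ⟨f1, f2, -, -, f3⟩ := fpf_f j
  obtain ⟨y, hy, e1⟩ := Emb.memU.1 (conj_mem_of_mem_normalizer (mem_NJ.1 hρ.1 j) (h.memU'.2 f2))
  obtain ⟨w, hw, e2⟩ := Emb.memU.1 (conj_mem_of_mem_normalizer (mem_NJ.1 hρ.1 (!j))
    (h.memU'.2 (fpf_f (!j)).2.1))
  have e3 : φ (y * w * (y * w)) = ρ * z * ρ⁻¹ := by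
    rw [← h.map_z, ← f1]; simp only [map_mul, e1, e2, conj_mul]
  rcases f3 y hy (h.memU'.1 (by rwa [map_mul, e1])) w hw with e4 | e4 | e4
  · exact (h.iv.conj ρ).1 (by rw [← e3, e4, map_one])
  · exact hz (comm_of_conj (by rw [← e3, e4, h.map_z])).symm
  · exact h.I_t ⟨ρ, hρ.2, rfl⟩ (by simpa only [map_mul _ _ t0, e3] using h.dz4 e4)

theorem card_R' {K : Subgroup G} (h1 : NJ φ ⊓ XX φ ≤ K) (h2 : K ≤ XX φ) :
    Nat.card (K ⊓ centralizer {z} : Subgroup G) = 512 := by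
  rw [← h.card_R, le_antisymm (inf_le_inf_right _ h2) (le_inf (h.R_le'.trans h1) inf_le_right)]

theorem I_Z : {u | Cj (NJ φ ⊓ XX φ) z u}.ncard = 3 ∧ ∀ u, Cj (NJ φ ⊓ XX φ) z u ↔
    (∀ i, u ∈ UU φ i) ∧ IsConj z u ∧ ¬ IsConj z (u * φ t0) := by
  have e := card_eq_orbit_mul (NJ φ ⊓ XX φ) z
  rw [h.card_R' le_rfl inf_le_right, h.card_XJ] at e
  have e1 : {u | Cj (NJ φ ⊓ XX φ) z u}.ncard = 3 := by unfold Cj; omega
  refine ⟨e1, Set.ext_iff.1 (Set.eq_of_subset_of_ncard_le (s := {u | Cj (NJ φ ⊓ XX φ) z u})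
    (t := {u | (∀ i, u ∈ UU φ i) ∧ IsConj z u ∧ ¬ IsConj z (u * φ t0)}) ?_ ?_)⟩
  · rintro _ ⟨k, hk, rfl⟩
    exact ⟨fun i => conj_mem_of_mem_normalizer (mem_NJ.1 hk.1 i) (h.zU i), cj rfl, h.I_t ⟨k, hk.2, rfl⟩⟩
  · rw [e1, h.ncard_Z _ (fun w => dz ε w && !dz ε (w * t0)) fun a _ => by
      simp only [← map_mul, h.dz_iff]; simp, (cnt_I ε).1]

end Pat

end Cfsg.Agent.Lib.He
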