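import Cfsg.Agent.Lib.He.SS
import Cfsg.Agent.Lib.He.Form

set_option autoImplicit false

/-! # The order of the group -/

namespace Cfsg.Agent.Lib.He

open Subgroup

variable {G : Type*} [Group G]

theorem Pat.card_eq [Finite G] {z : G} {φ : M →* G} {ε : Bool → Bool} (h : Pat z φ ε) :
    Nat.card G = if ε false then (if ε true then 4030387200 else 244823040) else
      (if ε true then 244823040 else 9999360) := by
  have e := h.formula
  have c := h.card_X
  have c0 := h.ff_cc (i := true)
  have c1 := h.ff_cc (i := false)
  have n0 := h.n_le (i := true)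
  have n1 := h.n_le (i := false)
  have s0 := h.n0_S
  have s1 := h.n1_S
  unfold ff at e
  rw [h.ff_t0, h.ff_tp] at e
  simp only [Bool.not_true, Bool.not_false, Bool.forall_bool] at c0 c1 n0 n1 s0 s1
  cases e1 : ε false <;> cases e2 : ε true <;> simp only [e1, e2, forall_const, and_self, if_true,
    Bool.false_eq_true, Bool.true_eq_false, if_false] at e c c0 c1 n0 n1 s0 s1 ⊢ <;> rw [c] at e <;> omega

end Cfsg.Agent.Lib.He
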