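import Cfsg.Agent.Lib.He.Base

set_option autoImplicit false
set_option maxRecDepth 100000
set_option synthInstance.maxSize 2000

/-! # The fusion pattern and the orders of the local subgroups -/

namespace Cfsg.Agent.Lib.He

open Subgroup Cfsg.Agent.Lib.Core
open Cfsg.Agent.Lib.Root.J1 (Iv conj_comm' comm_of_conj comm_conj card_eq_orbit_mul card_eq_ncard)
open Cfsg.Agent.Lib.Jk (mc back conj_inj ncard_conj)

variable {G : Type*} [Group G]

/-- the fusion pattern: `ε i` says that `cc i` is conjugate to `z` -/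
structure Pat (z : G) (φ : M →* G) (ε : Bool → Bool) : Prop extends Emb z φ where
  dz_iff : ∀ a, IsConj z (φ a) ↔ dz ε a = true
  dt_iff : ∀ a, IsConj (φ t0) (φ a) ↔ dt ε a = true

/-- `N(U_i)` -/
abbrev NU (φ : M →* G) (i : Bool) : Subgroup G := normalizer (UU φ i : Set G)
/-- `N(J)` -/
def NJ (φ : M →* G) : Subgroup G := NU φ false ⊓ NU φ true
/-- `C(t)` -/
abbrev XX (φ : M →* G) : Subgroup G := centralizer {φ t0}

theorem mem_NJ {φ : M →* G} {n : G} : n ∈ NJ φ ↔ ∀ i, n ∈ NU φ i := by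
  simp [NJ]

theorem NJ_le (φ : M →* G) (i : Bool) : NJ φ ≤ NU φ i := fun _ h => mem_NJ.1 h i

theorem cnt_U : ∀ ε i, ((UL i).filter (dz ε)).length = (if ε i then 45 else 21) ∧
    ((UL i).filter (dt ε)).length = (if ε i then 18 else 42) := by decide +kernel
theorem cnt_Z : ∀ ε, (ZL.filter (dz ε)).length = 9 ∧ (ZL.filter (dt ε)).length = 6 := by decide +kernel
theorem cnt_np : ∀ i, (LM.filter fun a => np i a.p).length = 3072 := by decide +kernel
theorem cnt_R : (LM.filter inR).length = 512 := by decide +kernel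

namespace Pat
variable {z : G} {φ : M →* G} {ε : Bool → Bool} (h : Pat z φ ε)
include h

theorem not_zt : ¬ IsConj z (φ t0) := by
  rw [h.dz_iff, (by decide +kernel : ∀ ε, dz ε t0 = false)]; simp

theorem iv_t : Iv (φ t0) := h.iv_iff.2 (by decide +kernel)

theorem iv_of' {u : G} (hu : IsConj (φ t0) u) : Iv u := by
  obtain ⟨g, rfl⟩ := isConj_iff.1 hu; exact h.iv_t.conj g

theorem not_both {u : G} (h1 : IsConj z u) (h2 : IsConj (φ t0) u) : False :=
  h.not_zt (h1.trans h2.symm)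

variable [Finite G]

theorem all {u : G} (hu : Iv u) : IsConj z u ∨ IsConj (φ t0) u := by
  obtain ⟨g, -, e⟩ := h.sylT.exists_conj_le (Invol.isPGroup_zpowers_of_involution hu.orderOf) le_top
  obtain ⟨a, -, ha⟩ := map_conj_le_iff.1 e u (mem_zpowers u)
  have k : IsConj (φ a) u := (cj ha.symm).symm
  have := h.iv_iff.1 (ha ▸ hu.conj g)
  cases e : dz ε a
  · exact .inr (((h.dt_iff a).2 (by simp [dt, e, this])).trans k)
  · exact .inl (((h.dz_iff a).2 e).trans k)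

theorem orb_U {i : Bool} {s : G} (hs : s ∈ UU φ i) :
    {y | ∃ k ∈ NU φ i, k * s * k⁻¹ = y} = {y | y ∈ UU φ i ∧ IsConj s y} := Set.ext fun y =>
  ⟨by rintro ⟨k, hk, rfl⟩; exact ⟨conj_mem_of_mem_normalizer hk hs, cj rfl⟩, fun hy => by
    obtain ⟨g, rfl⟩ := isConj_iff.1 hy.2; exact h.ctrl hs hy.1⟩

theorem orb_Z {s : G} (hs : ∀ i, s ∈ UU φ i) :
    {y | ∃ k ∈ NJ φ, k * s * k⁻¹ = y} = {y | (∀ i, y ∈ UU φ i) ∧ IsConj s y} := Set.ext fun y =>
  ⟨by rintro ⟨k, hk, rfl⟩; exact ⟨fun i => conj_mem_of_mem_normalizer (mem_NJ.1 hk i) (hs i), cj rfl⟩,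
    fun hy => by
    obtain ⟨g, rfl⟩ := isConj_iff.1 hy.2
    obtain ⟨n, n1, n2⟩ := h.ctrl2 hs hy.1
    exact ⟨n, mem_NJ.2 n1, n2⟩⟩

theorem ncard_U (i : Bool) (P : G → Prop) (Q : M → Bool) (hQ : ∀ a ∈ UL i, P (φ a) ↔ Q a = true) :
    {y | y ∈ UU φ i ∧ P y}.ncard = ((UL i).filter Q).length :=
  h.ncard_list _ _ ((nodup_UL i).1.filter _) (fun _ hg => Emb.U_comm hg.1 (h.zU i)) fun a => by
    rw [h.memU', inU_iff, List.mem_filter]; exact and_congr_right (hQ a)

theorem ncard_Z (P : G → Prop) (Q : M → Bool) (hQ : ∀ a ∈ ZL, P (φ a) ↔ Q a = true) :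
    {y | (∀ i, y ∈ UU φ i) ∧ P y}.ncard = (ZL.filter Q).length :=
  h.ncard_list _ _ (nodup_ZL.filter _) (fun _ hg => Emb.U_comm (hg.1 false) (h.zU _)) fun a => by
    simp only [h.memU', ← mem_ZL, List.mem_filter]; exact and_congr_right (hQ a)

theorem card_NU (i : Bool) : Nat.card (NU φ i) = (if ε i then 45 else 21) * 3072 := by
  rw [card_eq_orbit_mul _ z, h.orb_U (h.zU i), h.ncard_U i _ _ fun a _ => h.dz_iff a, (cnt_U ε i).1,
    h.card_sub _ (fun a => np i a.p) inf_le_right fun a => by simp [h.normU, mc, h.comm], cnt_np]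

theorem NJ_inf : NJ φ ⊓ centralizer {z} = TT φ := le_antisymm (fun n hn => by
    obtain ⟨a, rfl⟩ := h.surj n (mc.1 hn.2)
    exact h.memT'.2 (np_np _ (h.normU.1 hn.1.1) (h.normU.1 hn.1.2)))
  (le_inf (le_inf (h.T_norm _) (h.T_norm _)) h.T_le)

theorem card_NJ : Nat.card (NJ φ) = 9216 := by
  rw [card_eq_orbit_mul _ z, h.orb_Z h.zU, h.ncard_Z _ _ fun a _ => h.dz_iff a, (cnt_Z ε).1, h.NJ_inf,
    h.card_T]

theorem card_XU (i : Bool) : Nat.card (NU φ i ⊓ XX φ : Subgroup G) = if ε i then 7680 else 1536 := by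
  have := card_eq_orbit_mul (NU φ i) (φ t0)
  rw [h.orb_U (h.tU i), h.ncard_U i _ _ fun a _ => h.dt_iff a, (cnt_U ε i).2, h.card_NU] at this
  unfold XX
  split_ifs at this ⊢ <;> omega

theorem card_XJ : Nat.card (NJ φ ⊓ XX φ : Subgroup G) = 1536 := by
  have := card_eq_orbit_mul (NJ φ) (φ t0)
  rw [h.orb_Z h.tU, h.ncard_Z _ _ fun a _ => h.dt_iff a, (cnt_Z ε).2, h.card_NJ] at this
  unfold XX
  omega

theorem card_R : Nat.card (XX φ ⊓ centralizer {z} : Subgroup G) = 512 := by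
  rw [h.card_sub _ inR inf_le_right fun a => by simp [mc, h.comm, h.comm_iff, inR_iff], cnt_R]

end Pat

end Cfsg.Agent.Lib.He
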