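import Cfsg.Agent.Lib.He.Geo

set_option autoImplicit false
set_option maxRecDepth 100000

/-! # Two lines meet -/

namespace Cfsg.Agent.Lib.He

open Subgroup Cfsg.Agent.Lib.Core
open Cfsg.Agent.Lib.Root.J1 (Iv conj_comm' comm_of_conj comm_conj card_eq_orbit_mul card_eq_ncard
  ncard_modEq_prime)
open Cfsg.Agent.Lib.Jk (mc back conj_inj ncard_conj)

variable {G : Type*} [Group G]

/-- the points on the base line -/
def PP (φ : M →* G) (i : Bool) : Set (Subgroup G) := {B | ∃ y ∈ NU φ i ⊓ XX φ, cg y (UU φ (!i)) = B}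

theorem PP_cg {φ : M →* G} {i : Bool} {k : G} (hk : k ∈ NU φ i ⊓ XX φ) {B : Subgroup G}
    (hB : B ∈ PP φ i) : cg k B ∈ PP φ i := by
  obtain ⟨y, hy, rfl⟩ := hB
  exact ⟨k * y, mul_mem hk hy, (cg_cg ..).symm⟩

theorem PP_iff {φ : M →* G} {i : Bool} {B : Subgroup G} : B ∈ PP φ i ↔ Fl φ i (UU φ i) B :=
  ⟨fun ⟨y, hy, e⟩ => ⟨y, hy.2, cg_norm.2 hy.1, e⟩, Fl.base⟩

theorem XU_inf (φ : M →* G) (i : Bool) : NU φ i ⊓ XX φ ⊓ NU φ (!i) = NJ φ ⊓ XX φ :=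
  le_antisymm (fun _ hn => ⟨mem_NJ.2 (all_bool i hn.1.1 hn.2), hn.1.2⟩)
    fun _ hn => ⟨⟨NJ_le φ _ hn.1, hn.2⟩, NJ_le φ _ hn.1⟩

namespace Pat
variable {z : G} {φ : M →* G} {ε : Bool → Bool} (h : Pat z φ ε) [Finite G]
include h

theorem card_PP {i : Bool} (hi : ε i = true) : (PP φ i).ncard = 5 := by
  have e := card_orb (NU φ i ⊓ XX φ) (UU φ (!i))
  rw [XU_inf, h.card_XJ, h.card_XU, hi] at e
  unfold PP
  simp at e ⊢
  omega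

theorem odd_fix {ρ a : G} (ha : Cj (XX φ) z a) (hρ : ρ ∈ XX φ) (ho : Odd (orderOf ρ))
    (e : ρ * a = a * ρ) : ρ = 1 := by
  obtain ⟨x, hx, rfl⟩ := ha
  have := Invol.eq_one_of_mem_two_group_of_odd h.pR (x := x⁻¹ * ρ * x⁻¹⁻¹)
    ⟨(XX φ).mul_mem ((XX φ).mul_mem ((XX φ).inv_mem hx) hρ) ((XX φ).inv_mem ((XX φ).inv_mem hx)),
      mc.2 (by simpa using back e)⟩ (by rwa [Invol.orderOf_conj'])
  exact conj_eq_one_iff.1 this

theorem fix_two {i : Bool} (hi : ε i = true) {ρ : G} (hρ : ρ ∈ NU φ i ⊓ XX φ) (ho : Odd (orderOf ρ))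
    (h1 : ρ ≠ 1) {p : Subgroup G} (hp : p ∈ PP φ i) (e : cg ρ p = p) :
    {q | q ∈ PP φ i ∧ cg ρ q = q}.ncard = 2 := by
  obtain ⟨y, hy, rfl⟩ := hp
  have r : y⁻¹ * ρ * y ∈ NJ φ ⊓ XX φ := by
    rw [← XU_inf φ i]
    exact mem_inf.2 ⟨mul_mem (mul_mem (inv_mem hy) hρ) hy, by
      rw [cg_cg, cg_eq_iff, ← mul_assoc] at e; exact e⟩
  have r3 : ρ ^ 3 = 1 := by
    have := orderOf_dvd_natCard (⟨_, r⟩ : (NJ φ ⊓ XX φ : Subgroup G))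
    rw [h.card_XJ, orderOf_mk, show y⁻¹ * ρ * y = y⁻¹ * ρ * y⁻¹⁻¹ by simp, Invol.orderOf_conj',
      show 1536 = 3 * 2 ^ 9 from rfl] at this
    exact orderOf_dvd_iff_pow_eq_one.1
      ((Nat.Coprime.pow_right 9 (Nat.coprime_two_right.2 ho)).dvd_of_dvd_mul_right this)
  have : Fact (Nat.Prime 3) := ⟨Nat.prime_three⟩
  have m := fix_modEq (p := 3) (cg ρ) (PP φ i) (fun _ => PP_cg hρ) fun a _ => by
    show cg ρ (cg ρ (cg ρ a)) = a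
    rw [cg_cg, cg_cg, ← pow_three', r3, cg_one]
  have le := Set.ncard_le_ncard (s := {q | q ∈ PP φ i ∧ cg ρ q = q}) (t := PP φ i) fun _ e => e.1
  have ne : {q | q ∈ PP φ i ∧ cg ρ q = q}.ncard ≠ 5 := fun e5 => by
    have e1 := Set.eq_of_subset_of_ncard_le (s := {q | q ∈ PP φ i ∧ cg ρ q = q}) (t := PP φ i)
      (fun _ e => e.1) (by rw [e5, h.card_PP hi])
    have fx : ∀ {k}, k = y⁻¹ * ρ * y → ∀ q ∈ PP φ i, cg k q = q := by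
      rintro _ rfl q hq
      rw [← cg_cg, ← cg_cg, (e1.ge (PP_cg hy hq)).2, cg_cg, inv_mul_cancel, cg_one]
    obtain ⟨_, ⟨x, hx, rfl⟩, ne⟩ := Set.exists_ne_of_one_lt_ncard (s := PP φ i)
      (by rw [h.card_PP hi]; norm_num) (UU φ (!i))
    have uU := h.memU'.2 (fpf_f (!i)).2.1
    have kk := h.fpf r (fun e2 => h1 (h.odd_fix ⟨y, hy.2, rfl⟩ hρ.2 ho
      (by simpa [mul_assoc] using comm_conj y e2))) (!i)
    generalize y⁻¹ * ρ * y = k at *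
    refine ne (h.reg hx (mul_mem (conj_mem_of_mem_normalizer (NJ_le φ _ r.1) uU) uU)
      (by simpa using kk) (cg_norm.1 ?_))
    have e2 := fx rfl _ (PP_cg ⟨h.U_norm _ i uU, h.UX _ uU⟩ ⟨x, hx, rfl⟩)
    rw [mul_assoc, mul_assoc, ← cg_cg, ← cg_cg, ← cg_cg, ← e2, cg_cg k⁻¹, inv_mul_cancel, cg_one,
      cg_cg (φ _) (φ _), Emb.U_sq uU, cg_one, fx rfl _ ⟨x, hx, rfl⟩]
  rw [h.card_PP hi] at m le
  unfold Nat.ModEq at m
  omega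

theorem flag_I {i : Bool} {x : G} (hx : x ∈ XX φ) : {u | Cj (XX φ) z u ∧ u ∈ cg x (UU φ i) ∧
    u ∈ cg x (UU φ (!i))}.ncard = 3 := by
  rw [← h.I_Z.1]
  refine (ncard_conj x _ _ fun u => ?_).symm
  rw [conj_mem_map_conj, conj_mem_map_conj]
  constructor
  · rintro ⟨k, hk, rfl⟩
    exact ⟨Cj.conj ⟨k, hk.2, rfl⟩ hx, conj_mem_of_mem_normalizer (NJ_le φ _ hk.1) (h.zU _),
      conj_mem_of_mem_normalizer (NJ_le φ _ hk.1) (h.zU _)⟩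
  · rintro ⟨e1, e2, e3⟩
    have := e1.trans (Cj.symm ⟨x, hx, rfl⟩)
    exact (h.I_Z.2 u).2 ⟨all_bool i e2 e3, this.isConj, h.I_t this⟩

theorem plane {i : Bool} (hi : ε i = true) {x : G} (hx : x ∈ XX φ) :
    ∃ p ∈ PP φ i, Fl φ i (cg x (UU φ i)) p := by
  by_contra H
  push Not at H
  have P1 : ∀ {a b}, Cj (NU φ i ⊓ XX φ) z a → Cj (XX φ) z b → b ∈ cg x (UU φ i) →
      Odd (orderOf (a * b)) := by
    rintro _ _ ⟨y, hy, rfl⟩ ⟨w, hw, rfl⟩ hb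
    have e := h.uniqX (cj rfl) hw hx (cg_mem (h.zU i)) hb
    by_contra e1
    obtain ⟨j, hj⟩ := h.even hy.2 hw e1
    revert hj
    refine all_bool (P := fun j => Fl φ j (cg y (UU φ j)) (cg w (UU φ (!j))) → False) i
      (fun hj => ?_) (fun hj => ?_) j
    · rw [cg_norm.2 hy.1] at hj
      exact H _ (PP_iff.2 hj) (e ▸ Fl.self i hw)
    · rw [Bool.not_not, e] at hj
      exact H _ ⟨y, hy, rfl⟩ hj.symm
  have sw : ∀ {k}, Cj (XX φ) z k → cg k (UU φ i) = cg x (UU φ i) → cg k (cg x (UU φ i)) = UU φ i :=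
    fun hk e => by rw [← e, cg_cg, (h.I_iv hk).2, cg_one]
  have rr : ∀ {k l}, Cj (XX φ) z k → cg k (UU φ i) = cg x (UU φ i) → Cj (XX φ) z l →
      cg l (UU φ i) = cg x (UU φ i) → k * l ∈ NU φ i ⊓ XX φ := fun hk e1 hl e2 =>
    ⟨cg_norm.1 (by rw [← cg_cg, e2, sw hk e1]), mul_mem (h.I_X hk) (h.I_X hl)⟩
  have P3 : ∀ {k l}, Cj (XX φ) z k → cg k (UU φ i) = cg x (UU φ i) → Cj (XX φ) z l →
      cg l (UU φ i) = cg x (UU φ i) → Odd (orderOf (k * l)) := fun {k l} hk e1 hl e2 => by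
    by_contra e
    obtain ⟨m, hm, -, -, e3⟩ := h.ev2 hk hl e
    have tU := le_normalizer (h.tU i)
    have m1 := e3 _ (rr hk e1 hl e2) ⟨tU, mc.2 rfl⟩
    have m2 := e3 (normalizer (cg x (UU φ i) : Set G)) (cg_norm.1 (by rw [← cg_cg, sw hl e2, e1]))
      (le_normalizer (h.t_cg hx i))
    rw [← map_conj_normalizer, mem_map_conj] at m2
    have m3 := h.xp (i := i) (y := x⁻¹ * m * x) (by simpa using isConj_cj (g := x⁻¹).2 hm)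
      (mem_inf.2 ⟨m2, mul_mem (mul_mem (inv_mem hx) (mem_inf.1 m1).2) hx⟩)
    simp only [← mem_cg, cg_cg] at m3
    rcases h.xp hm m1 with a | ⟨y, hy, a⟩ <;> rcases m3 with b | ⟨w, hw, b⟩
    · exact H _ ⟨1, one_mem _, rfl⟩ (by
        rw [h.uniq1 hm hx b a]; simpa only [cg_one] using Fl.self (φ := φ) i (one_mem _))
    · have := h.pl' hm (one_mem _) (mul_mem hx hw.2) (by rwa [cg_one]) b
      rw [cg_one] at this
      exact H _ (PP_iff.2 this) ⟨_, mul_mem hx hw.2, by rw [← cg_cg, cg_norm.2 hw.1], rfl⟩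
    · exact H _ ⟨y, hy, rfl⟩ (h.pl' hm hx hy.2 b a)
    · exact H _ ⟨y, hy, rfl⟩ ⟨_, mul_mem hx hw.2, by rw [← cg_cg, cg_norm.2 hw.1],
        h.uniqX hm (mul_mem hx hw.2) hy.2 b a⟩
  have P2 : ∀ {a b}, Cj (NU φ i ⊓ XX φ) z a → Cj (XX φ) z b → b ∈ cg x (UU φ i) →
      ∃ k, Cj (XX φ) z k ∧ cg k (UU φ i) = cg x (UU φ i) ∧ k * a * k⁻¹ = b := fun {a b} ha hb e => by
    obtain ⟨y, hy, rfl⟩ := ha
    have ha : Cj (XX φ) z _ := ⟨y, hy.2, rfl⟩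
    obtain ⟨k, k1, -, k3⟩ := ex_swap (h.I_iv ha) (h.I_iv hb) (P1 ⟨y, hy, rfl⟩ hb e)
    obtain ⟨k4, k5⟩ := k3 _ (h.I_X ha) (h.I_X hb)
    exact ⟨k, ha.trans k5, h.uniqX hb.isConj k4 hx
      (k1 ▸ cg_mem (conj_mem_of_mem_normalizer hy.1 (h.zU i))) e, k1⟩
  obtain ⟨k, hk, ek, -⟩ := P2 (Cj.refl _ z) ⟨x, hx, rfl⟩ (cg_mem (h.zU i))
  have ik := h.I_iv hk
  have d := dc (PP φ i) {l | (Cj (XX φ) z l ∧ cg l (UU φ i) = cg x (UU φ i) ∧ l ≠ k) ∧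
      ∃ p ∈ PP φ i, cg (k * l) p = p} (fun p l => cg (k * l) p = p) 2 2 ?_ ?_
  · have m := ncard_modEq_prime Nat.prime_two ik.orderOf {l | (Cj (XX φ) z l ∧
      cg l (UU φ i) = cg x (UU φ i) ∧ l ≠ k) ∧ ∃ p ∈ PP φ i, cg (k * l) p = p} (by
      rintro l ⟨⟨l1, l2, l3⟩, p, hp, e⟩
      refine ⟨⟨l1.conj (h.I_X hk), by rw [← cg_cg, ← cg_cg, ik.inv, ek, sw l1 l2, ek], fun e1 => l3 ?_⟩,
        p, hp, ?_⟩
      · rwa [← conj_inj (g := k), mul_inv_cancel_right]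
      · nth_rewrite 1 [← e]
        rw [cg_cg, ik.inv]
        simp only [mul_assoc, ik.cancel, (h.I_iv l1).2, cg_one])
    rw [h.card_PP hi] at d
    unfold Nat.ModEq at m
    obtain ⟨l, ⟨⟨l1, l2, l3⟩, -⟩, c⟩ := Set.nonempty_of_ncard_ne_zero fun e => by
      have := m.trans (congrArg (· % 2) e); omega
    exact l3 (eq_of_odd (h.I_iv l1) ik (P3 l1 l2 hk ek) (n := 1) (by
      rw [pow_one, pow_two, mul_assoc, ← mul_assoc k, ← c]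
      simp only [mul_assoc, ik.2, mul_one, (h.I_iv l1).2]))
  · rintro _ ⟨y, hy, rfl⟩
    have ky := mul_mem (h.I_X hk) hy.2
    have e := h.flag_I (i := i) ky
    have ea : cg (k * y) (UU φ i) = cg x (UU φ i) := by rw [← cg_cg, cg_norm.2 hy.1, ek]
    have ha : Cj (XX φ) z _ := ⟨y, hy.2, rfl⟩
    have inj : ∀ {l l'}, Cj (XX φ) z l → cg l (UU φ i) = cg x (UU φ i) → Cj (XX φ) z l' →
        cg l' (UU φ i) = cg x (UU φ i) → l * (y * z * y⁻¹) * l⁻¹ = l' * (y * z * y⁻¹) * l'⁻¹ → l = l' :=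
      fun {l l'} l1 l2 l3 l4 e1 => by
      have := h.odd_fix ha (rr l3 l4 l1 l2).2 (P3 l3 l4 l1 l2) (comm_of_conj (by
        calc _ = l' * (l * (y * z * y⁻¹) * l⁻¹) * l'⁻¹ := by group
          _ = _ := by rw [e1, (h.I_iv l3).inv]; simp only [mul_assoc, (h.I_iv l3).cancel,
              (h.I_iv l3).2, mul_one])).symm
      rw [eq_inv_of_mul_eq_one_right this, (h.I_iv l3).inv]
    have mk : k * (y * z * y⁻¹) * k⁻¹ ∈ {u | Cj (XX φ) z u ∧ u ∈ cg (k * y) (UU φ i) ∧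
        u ∈ cg (k * y) (UU φ (!i))} := ⟨ha.conj (h.I_X hk), by rw [← cg_cg]; exact cg_mem (cg_mem (h.zU _)),
      by rw [← cg_cg]; exact cg_mem (cg_mem (h.zU _))⟩
    rw [← Set.ncard_sdiff_singleton_add_one mk, Nat.add_right_cancel_iff (k := 2)] at e
    rw [← Set.InjOn.ncard_image (f := fun l => l * (y * z * y⁻¹) * l⁻¹) fun l hl l' hl' e1 =>
      inj hl.1.1.1 hl.1.1.2.1 hl'.1.1.1 hl'.1.1.2.1 e1, ← e]
    congr 1
    ext u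
    constructor
    · rintro ⟨l, ⟨⟨⟨l1, l2, l3⟩, -⟩, e1⟩, rfl⟩
      refine ⟨⟨ha.conj (h.I_X l1), ?_, ?_⟩, fun e2 => l3 (inj l1 l2 hk ek e2)⟩
      · rw [ea, ← l2]; exact cg_mem (conj_mem_of_mem_normalizer hy.1 (h.zU i))
      · rw [← cg_cg, ← e1, cg_cg, ik.cancel]; exact cg_mem (cg_mem (h.zU _))
    · rintro ⟨⟨u1, u2, u3⟩, u4⟩
      obtain ⟨l, l1, l2, rfl⟩ := P2 ⟨y, hy, rfl⟩ u1 (ea ▸ u2)
      have e1 : cg (k * l) (cg y (UU φ (!i))) = cg y (UU φ (!i)) := by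
        rw [← cg_cg, cg_cg l, h.uniqX u1.isConj (mul_mem (h.I_X l1) hy.2) ky
          (by rw [← cg_cg]; exact cg_mem (cg_mem (h.zU _))) u3, cg_cg, ik.cancel]
      exact ⟨l, ⟨⟨⟨l1, l2, fun e2 => u4 (by rw [e2]; rfl)⟩, _, ⟨y, hy, rfl⟩, e1⟩, e1⟩, rfl⟩
  · rintro l ⟨⟨l1, l2, l3⟩, p, hp, e⟩
    exact h.fix_two hi (rr hk ek l1 l2) (P3 hk ek l1 l2)
      (fun e1 => l3 (by rw [eq_inv_of_mul_eq_one_right e1, ik.inv])) hp e

end Pat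

end Cfsg.Agent.Lib.He
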