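import Cfsg.Agent.Lib.He.Val

set_option autoImplicit false
set_option maxRecDepth 100000

/-! # The local counts when `C(t)` acts on a projective plane of order four -/

namespace Cfsg.Agent.Lib.He

open Subgroup Cfsg.Agent.Lib.Core
open Cfsg.Agent.Lib.Root.J1 (Iv conj_comm' comm_of_conj comm_conj card_eq_orbit_mul card_eq_ncard)
open Cfsg.Agent.Lib.Jk (mc back conj_inj ncard_conj)

variable {G : Type*} [Group G]

theorem a3_f : (∀ ε, dz ε a3 = true ∧ dz ε (a3 * t0) = false) ∧ (∀ i, inU i a3 = true) ∧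
    ∀ a : M, inR a = true → a * a3 = a3 * a → a * tp = tp * a := by decide +kernel

/-- the involutions opposite to `z` -/
def OO (z : G) (φ : M →* G) : Set G := {j | Cj (XX φ) z j ∧ Odd (orderOf (z * j)) ∧ j ≠ z}

/-- those centralised by an outer element of `C(z, t)` -/
def O1 (z : G) (φ : M →* G) (j : G) : Prop :=
  ∃ c ∈ XX φ, c * z = z * c ∧ c * j = j * c ∧ c * φ tp ≠ φ tp * c

namespace Pat
variable {z : G} {φ : M →* G} {ε : Bool → Bool} (h : Pat z φ ε) [Finite G]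
include h

theorem opp_iff {y : G} (hy : y ∈ XX φ) :
    y * z * y⁻¹ ∈ OO z φ ↔ ∀ i, cg y (UU φ (!i)) ∉ PP φ i := by
  constructor
  · rintro ⟨-, o, ne⟩ i ⟨x, hx, e⟩
    refine ne (two_eq (h.pT.map (MulAut.conj x).toMonoidHom) (h.iv.conj y) ?_ ?_ o).symm
    · exact map_mono (Emb.U_le_T i) ((cg_norm.2 hx.1).ge (h.zU i))
    · exact map_mono (Emb.U_le_T (!i)) (e.ge (cg_mem (h.zU _)))
  · refine fun H => ⟨⟨y, hy, rfl⟩, by_contra fun o => ?_, fun e => H true ⟨1, one_mem _, ?_⟩⟩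
    · obtain ⟨i, f⟩ := h.even (one_mem _) hy (by simpa using o)
      exact H i (PP_iff.2 (cg_one (UU φ i) ▸ f))
    · rw [cg_one, h.uniq1 (IsConj.refl z) hy (e ▸ cg_mem (h.zU _)) (h.zU _)]

theorem line_I {i : Bool} (hi : ε i = true) {x : G} (hx : x ∈ XX φ) :
    {u | Cj (XX φ) z u ∧ u ∈ cg x (UU φ i)}.ncard = 15 := by
  have e := card_eq_orbit_mul (NU φ i ⊓ XX φ) z
  rw [h.card_R' (inf_le_inf_right _ (NJ_le φ i)) inf_le_right, h.card_XU, hi,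
    ncard_conj x _ (fun u => Cj (XX φ) z u ∧ u ∈ cg x (UU φ i)) fun u => ?_] at e
  · rw [if_pos rfl] at e; omega
  rw [conj_mem_map_conj]
  exact ⟨fun ⟨k, hk, e⟩ => ⟨Cj.conj ⟨k, hk.2, e⟩ hx, e ▸ conj_mem_of_mem_normalizer hk.1 (h.zU _)⟩,
    fun e => h.I_U (e.1.trans (Cj.symm ⟨x, hx, rfl⟩)) e.2⟩

theorem card_OO (hS : ∀ i, ε i = true) : (OO z φ).ncard = 192 := by
  have d := dc ({B | ∃ k ∈ XX φ, cg k (UU φ true) = B} \ PP φ false) (OO z φ) (fun l j => j ∈ l) 12 1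
    (by
      rintro _ ⟨⟨x, hx, rfl⟩, ne⟩
      obtain ⟨p, hp, w, hw, e1, rfl⟩ := h.plane (hS true) hx
      rw [← e1] at ne ⊢
      have e := ncard_split (fun u => Cj (XX φ) z u ∧ u ∈ cg w (UU φ true)) (· ∈ cg w (UU φ (!true)))
      simp only [and_assoc] at e
      rw [h.line_I (hS _) hw, h.flag_I hw, Nat.add_left_cancel_iff (m := 12)] at e
      rw [e]
      congr 1
      ext j
      constructor
      · rintro ⟨h1, h2⟩
        obtain ⟨y, hy, rfl⟩ := h1.1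
        exact ⟨h1.1, h2, fun e => (h.opp_iff hy).1 h1 true
          (h.uniqX (cj rfl) hw hy e (cg_mem (h.zU _)) ▸ hp)⟩
      · rintro ⟨⟨y, hy, rfl⟩, h2, h3⟩
        have e2 := h.uniqX (cj rfl) hw hy h2 (cg_mem (h.zU _))
        refine ⟨(h.opp_iff hy).2 (all_bool false (by rwa [e2] at ne) fun e => ?_), h2⟩
        rcases h.cp (PP_iff.1 hp) (PP_iff.1 e) (Fl.self true hw) (e2 ▸ Fl.self true hy) with e3 | e3
        · exact h3 (e3 ▸ cg_mem (h.zU _))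
        · exact ne ⟨1, one_mem _, (cg_one _).trans e3.symm⟩)
    (by
      intro j hj
      obtain ⟨y, hy, rfl⟩ := hj.1
      refine ncard_one (cg y (UU φ true)) fun l => ⟨?_, ?_⟩
      · rintro ⟨⟨⟨x, hx, rfl⟩, -⟩, e⟩
        exact h.uniqX (cj rfl) hx hy e (cg_mem (h.zU _))
      · rintro rfl
        exact ⟨⟨⟨y, hy, rfl⟩, (h.opp_iff hy).1 hj false⟩, cg_mem (h.zU _)⟩)
  have e := Set.ncard_sdiff_add_ncard_of_subset (s := PP φ false)
    (t := {B | ∃ k ∈ XX φ, cg k (UU φ true) = B}) fun _ ⟨k, hk, e⟩ => ⟨k, hk.2, e⟩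
  rw [h.card_L hS, h.card_PP (hS _)] at e
  omega

theorem n0_S (hS : ∀ i, ε i = true) : {j | Cj (XX φ) z j ∧ Odd (orderOf (z * j))}.ncard = 193 := by
  rw [show {j | Cj (XX φ) z j ∧ Odd (orderOf (z * j))} = insert z (OO z φ) from ?_,
    Set.ncard_insert_of_notMem fun e => e.2.2 rfl, h.card_OO hS]
  ext j
  exact ⟨fun e => or_iff_not_imp_left.2 fun ne => ⟨e.1, e.2, ne⟩, by
    rintro (rfl | e)
    exacts [⟨Cj.refl _ _, by simp [h.iv.2]⟩, ⟨e.1, e.2.1⟩]⟩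

theorem stab (hS : ∀ i, ε i = true) {y c : G} (hy : y ∈ XX φ) (ho : y * z * y⁻¹ ∈ OO z φ)
    (cX : c ∈ XX φ) (cz : c * z = z * c) (ct : c * φ tp = φ tp * c)
    (cn : ∀ i, c ∈ normalizer (cg y (UU φ i) : Set G)) :
    c = 1 ∨ c = φ t0 ∨ c = φ tp ∨ c = φ tp * φ t0 := by
  rw [h.opp_iff hy] at ho
  have k : ∀ i, (∀ a ∈ UU φ i, a * c ∈ UU φ (!i) → a * c ∈ UU φ i) ∧ ∀ a, IsConj z a → a ∈ UU φ i →
      a ∈ UU φ (!i) → a ∉ normalizer (cg y (UU φ i) : Set G) := fun i => by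
    obtain ⟨p, hp, f⟩ := h.plane (hS i) hy
    have f0 := PP_iff.1 hp
    have b : Fl φ i (UU φ i) (UU φ (!i)) := PP_iff.1 ⟨1, one_mem _, cg_one _⟩
    have n1 : cg y (UU φ i) ≠ UU φ i := fun e => ho (!i) (by
      rw [Bool.not_not, e]; exact PP_iff.2 b.symm')
    have n2 : p ≠ UU φ (!i) := fun e => ho (!i) (by
      rw [Bool.not_not]; exact PP_iff.2 (e ▸ f.symm'))
    refine ⟨fun a ha e => by_contra fun e1 => n2 (h.reg' b f0 e e1 (mul_mem (h.fl_norm f0.symm' ha)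
      (cg_norm.1 ((h.cp f0 ?_ f ?_).resolve_right n1)))), fun a a1 a2 a3 a4 => ?_⟩
    · exact cg_norm.2 (NJ_le φ i (h.R_le' ⟨cX, mc.2 cz⟩).1) ▸ f0.cg cX
    · exact cg_norm.2 (cn i) ▸ f.cg cX
    · refine n1 (h.reg' f0.symm' f.symm' a2 (fun e => n2 ?_) a4)
      obtain ⟨w, hw, rfl⟩ := hp
      exact h.uniq1 a1 hw.2 e a3
  obtain ⟨a, ha, rfl⟩ := h.memR ⟨cX, mc.2 cz⟩
  obtain ⟨u, hu, e⟩ := J_f a ha (h.comm_iff.1 ct)
  have uU : φ u ∈ UU φ false := Emb.memU.2 ⟨u, hu, rfl⟩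
  have c1 := (mul_mem_cancel_left uU).1 ((k false).1 _ uU (map_mul φ u a ▸ h.memU'.2 e))
  have c2 := (k true).1 1 (one_mem _) (by rwa [one_mul])
  rw [one_mul] at c2
  have := v_Z ε a ((mem_ZL a).2 (all_bool true (h.memU'.1 c2) (h.memU'.1 c1)))
  simp only [← h.dz_iff, ← h.eq_iff, map_mul, map_one] at this
  exact (this.resolve_left fun e => (k true).2 _ e c2 c1 (cn _)).resolve_left fun e => (k true).2 _ e
    (mul_mem c2 (h.tU _)) (mul_mem c1 (h.tU _)) (mul_mem (cn _) (le_normalizer (h.t_cg hy _)))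

theorem cen_norm {y c : G} (hy : y ∈ XX φ) (cX : c ∈ XX φ) (e : c * (y * z * y⁻¹) = y * z * y⁻¹ * c)
    (i : Bool) : c ∈ normalizer (cg y (UU φ i) : Set G) := by
  rw [← cg_norm, cg_cg]
  refine h.uniqX (cj rfl) (mul_mem cX hy) hy ?_ (cg_mem (h.zU i))
  rw [← cg_cg, ← conj_comm' e.symm]; exact cg_mem (cg_mem (h.zU i))

theorem stab' (hS : ∀ i, ε i = true) {j c : G} (ho : j ∈ OO z φ) (cX : c ∈ XX φ) (cz : c * z = z * c)
    (cj : c * j = j * c) (ct : c * φ tp = φ tp * c) :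
    c = 1 ∨ c = φ t0 ∨ c = φ tp ∨ c = φ tp * φ t0 := by
  obtain ⟨y, hy, rfl⟩ := ho.1
  exact h.stab hS hy ho cX cz ct (h.cen_norm hy cX cj)

theorem out_mul {a b : G} (ha : a ∈ XX φ) (hb : b ∈ XX φ) (h1 : a * φ tp ≠ φ tp * a)
    (h2 : b * φ tp ≠ φ tp * b) : a * b * φ tp = φ tp * (a * b) := (comm_of_conj (by
  calc _ = a * (b * φ tp * b⁻¹) * a⁻¹ := by group
    _ = _ := by rw [(h.hV hb).resolve_left h2, ← conj_mul, (h.hV ha).resolve_left h1,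
      conj_comm' (mc.1 ha).symm, mul_assoc, h.iv_t.2, mul_one])).symm

theorem card_O1 (hS : ∀ i, ε i = true) : {j | j ∈ OO z φ ∧ O1 z φ j}.ncard = 64 := by
  have e := ncard_split (· ∈ OO z φ) (O1 z φ)
  have d := dvd_ncard (XX φ ⊓ centralizer {z}) 128 {j | j ∈ OO z φ ∧ ¬ O1 z φ j} (by
    rintro k hk j ⟨⟨h1, h2, h3⟩, h4⟩
    have kz := conj_comm' (mc.1 hk.2).symm
    refine ⟨⟨h1.conj hk.1, ?_, fun e => h3 (conj_inj.1 (e.trans kz.symm))⟩, ?_⟩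
    · rwa [← kz, conj_mul, Invol.orderOf_conj']
    · rintro ⟨c, c1, c2, c3, c4⟩
      exact h4 ⟨k⁻¹ * c * k, (XX φ).mul_mem ((XX φ).mul_mem ((XX φ).inv_mem hk.1) c1) hk.1,
        back (kz.symm ▸ c2), back c3, by simpa using (h.in_iff ((XX φ).inv_mem hk.1) c1).not.2 c4⟩) (by
    classical
    rintro j ⟨h1, h2⟩
    have e := card_eq_orbit_mul (XX φ ⊓ centralizer {z}) j
    have l : Nat.card (XX φ ⊓ centralizer {z} ⊓ centralizer {j} : Subgroup G) ≤ 4 := by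
      rw [card_eq_ncard]
      refine (Set.ncard_le_ncard (t := ({1, φ t0, φ tp, φ tp * φ t0} : Finset G)) fun c hc => ?_).trans
        (by rw [Set.ncard_coe_finset]; exact Finset.card_le_four)
      simpa using h.stab' hS h1 hc.1.1 (mc.1 hc.1.2) (mc.1 hc.2)
        (by_contra fun e => h2 ⟨c, hc.1.1, mc.1 hc.1.2, mc.1 hc.2, e⟩)
    rw [h.card_R] at e
    generalize Nat.card _ = n at *
    interval_cases n <;> omega)
  have : {j | j ∈ OO z φ ∧ ¬ O1 z φ j}.ncard ≠ 0 := by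
    obtain ⟨j, hj⟩ := Set.nonempty_of_ncard_ne_zero (s := OO z φ) (by rw [h.card_OO hS]; simp)
    obtain ⟨y, hy, rfl⟩ := hj.1
    obtain ⟨k, hk, e⟩ := (h.I_Z.2 (φ a3)).2 ⟨fun i => h.memU'.2 (a3_f.2.1 i), (h.dz_iff _).2 (a3_f.1 ε).1,
      map_mul φ a3 t0 ▸ h.ndz (a3_f.1 ε).2⟩
    have yk := mul_mem hy (mem_inf.1 hk).2
    have e1 : ∀ i, cg (y * k) (UU φ i) = cg y (UU φ i) := fun i => by
      rw [← cg_cg, cg_norm.2 (NJ_le φ i hk.1)]
    have o2 := (h.opp_iff yk).2 fun i => e1 _ ▸ (h.opp_iff hy).1 hj i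
    by_cases c : O1 z φ (y * z * y⁻¹)
    · refine Set.ncard_ne_zero_of_mem ⟨o2, fun ⟨b, b1, b2, b3, b4⟩ => ?_⟩
      obtain ⟨c, c1, c2, c3, c4⟩ := c
      have v := h.stab hS hy hj (mul_mem c1 b1) (Commute.mul_left c2 b2) (h.out_mul c1 b1 c4 b4)
        fun i => mul_mem (h.cen_norm hy c1 c3 i) (e1 i ▸ h.cen_norm yk b1 b3 i)
      have v1 := mc.1 (h.I_X o2.1)
      have v2 := h.I_in o2.1
      have v3 : c * b ∈ centralizer {y * k * z * (y * k)⁻¹} := by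
        rcases v with v | v | v | v <;> rw [v]
        exacts [one_mem _, mc.2 v1.symm, mc.2 v2.symm, mul_mem (mc.2 v2.symm) (mc.2 v1.symm)]
      rw [mul_mem_cancel_right (mc.2 b3), mc, show y * k * z * (y * k)⁻¹ = y * (k * z * k⁻¹) * y⁻¹ by group,
        e] at v3
      have cy := mul_mem (mul_mem (inv_mem hy) c1) hy
      obtain ⟨a, ha, e2⟩ := h.memR ⟨cy, mc.2 (back c3)⟩
      have := h.comm_iff.2 (a3_f.2.2 a ha (h.comm_iff.1 (e2 ▸ back v3)))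
      exact c4 ((h.in_iff (inv_mem hy) c1).1 (by rwa [inv_inv, ← e2]))
    · exact Set.ncard_ne_zero_of_mem ⟨hj, c⟩
  rw [Set.ofPred_mem_eq, h.card_OO hS] at e
  omega

theorem n1_S (hS : ∀ i, ε i = true) : (WW φ z).ncard = 144 := by
  have e := ncard_split (· ∈ WW φ z) fun v => v * z = z * v
  have sw : ∀ j ∈ OO z φ, ∃ k, Cj (XX φ) z k ∧ k * z * k⁻¹ = j ∧ k * j * k⁻¹ = z := fun j hj =>
    let ⟨k, k1, k2, k3⟩ := ex_swap h.iv (h.I_iv hj.1) hj.2.1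
    ⟨k, (k3 _ h.zX (h.I_X hj.1)).2, k1, k2⟩
  have cm : ∀ {a b j : G}, a * z * a⁻¹ = j → a * j * a⁻¹ = z → b * z * b⁻¹ = j → b * j * b⁻¹ = z →
      a * b * z = z * (a * b) ∧ a * b * j = j * (a * b) := fun {a b j} a1 a2 b1 b2 =>
    ⟨(comm_of_conj (Eq.trans (by rw [← b1]; group) a2)).symm,
      (comm_of_conj (Eq.trans (by rw [← b2]; group) a1)).symm⟩
  have bk : ∀ {v j : G}, Iv v → v * z * v⁻¹ = j → v * j * v⁻¹ = z := fun iv e => by
    rw [← e, iv.inv]; simp only [mul_assoc, iv.cancel, iv.2, mul_one]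
  have tX := h.UX _ (h.memU'.2 (tp_f.1 true))
  have d := dc {j | j ∈ OO z φ ∧ O1 z φ j} {v | v ∈ WW φ z ∧ ¬ v * z = z * v}
    (fun j v => v * z * v⁻¹ = j) 2 1 (by
    rintro j ⟨hj, c, c1, c2, c3, c4⟩
    obtain ⟨k, k1, k2, k3⟩ := sw j hj
    have jt := mc.1 (h.I_X hj.1)
    obtain ⟨g, g1, g2, g3, g4⟩ : ∃ g ∈ XX φ, g * g = 1 ∧ g * φ tp ≠ φ tp * g ∧ g * z * g⁻¹ = j := by
      have gX := mul_mem c1 (h.I_X k1)
      have go : c * k * φ tp ≠ φ tp * (c * k) := fun e =>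
        c4 (mc.1 ((mul_mem_cancel_right (mc.2 (h.I_in k1))).1 (mc.2 e)))
      have g1 : c * k * z * (c * k)⁻¹ = j := by rw [← conj_comm' c3.symm, ← k2]; group
      have g2 : c * k * j * (c * k)⁻¹ = z := by rw [← conj_comm' c2.symm, ← k3]; group
      generalize c * k = g at *
      rcases h.stab' hS hj (mul_mem gX gX) (cm g1 g2 g1 g2).1 (cm g1 g2 g1 g2).2 (h.out_mul gX gX go go)
        with e | e | e | e
      · exact ⟨g, gX, e, go, g1⟩
      · refine ⟨g * φ tp, mul_mem gX tX, ?_, fun e => go (mul_right_cancel (e.trans (mul_assoc ..).symm)),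
          by rw [mul_assoc g, h.comm, ← g1]; group⟩
        calc _ = g * φ tp * g⁻¹ * (g * g) * φ tp := by group
          _ = 1 := by
            rw [(h.hV gX).resolve_left go, e, mul_assoc (φ tp), h.iv_t.2, mul_one,
              Emb.U_sq (h.memU'.2 (tp_f.1 true))]
      · exact absurd (by rw [← e, mul_assoc]) go
      · exact absurd (mc.1 ((mul_mem_cancel_right (mc.2 (mc.1 gX).symm : φ t0 ∈ centralizer {g})).1
          (e ▸ mc.2 (mul_assoc ..)))).symm go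
    have ig : Iv g := ⟨fun e => g3 (by simp [e]), g2⟩
    have m : ∀ v ∈ XX φ, v * v = 1 → v * φ tp ≠ φ tp * v → v * z * v⁻¹ = j →
        (v ∈ WW φ z ∧ ¬ v * z = z * v) ∧ v * z * v⁻¹ = j := fun v v1 v2 v3 v4 =>
      ⟨⟨⟨v1, ⟨fun e => v3 (by simp [e]), v2⟩, v3, v4 ▸ hj.2.1⟩,
        fun e => hj.2.2 (v4 ▸ conj_comm' e.symm)⟩, v4⟩
    refine Set.ncard_eq_two.2 ⟨g, g * φ t0, by simpa using h.iv_t.1, Set.ext fun v => ⟨?_, ?_⟩⟩
    · rintro ⟨⟨⟨v1, v2, v3, -⟩, -⟩, v4⟩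
      have e := cm g4 (bk ig g4) v4 (bk v2 v4)
      have c := Invol.conj_mul_eq_inv g2 v2.2
      rcases h.stab' hS hj (mul_mem g1 v1) e.1 e.2 (h.out_mul g1 v1 g3 v3) with e | e | e | e
      · exact .inl (by rw [eq_inv_of_mul_eq_one_right e, ig.inv])
      · exact .inr (by rw [← e, ig.cancel]; rfl)
      · rw [e, (h.iv_iff.2 (by decide +kernel)).inv] at c
        exact absurd (comm_of_conj c).symm g3
      · rw [e, ← conj_mul, conj_comm' (mc.1 g1).symm, ← map_mul, (h.iv_iff.2 (by decide +kernel)).inv,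
          map_mul, mul_left_inj] at c
        exact absurd (comm_of_conj c).symm g3
    · rintro (rfl | rfl)
      · exact m _ g1 g2 g3 g4
      · refine m _ (mul_mem g1 (mc.2 rfl)) ?_
          (fun e => g3 (mc.1 ((mul_mem_cancel_right (mc.2 (mc.1 tX).symm)).1 (mc.2 e))))
          (by rw [mul_assoc g, h.comm, ← g4]; group)
        rw [mul_assoc, ← mul_assoc (φ t0), ← mc.1 g1, mul_assoc, h.iv_t.2, mul_one, g2]) (by
    rintro v ⟨⟨v1, v2, v3, v4⟩, v5⟩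
    have o : v * z * v⁻¹ ∈ OO z φ := ⟨⟨v, v1, rfl⟩, v4, fun e => v5 (comm_of_conj e).symm⟩
    obtain ⟨k, k1, k2, k3⟩ := sw _ o
    have e := cm rfl (bk v2 rfl) k2 k3
    exact ncard_one (v * z * v⁻¹) fun j => ⟨fun e => e.2.symm, by
      rintro rfl
      exact ⟨⟨o, _, mul_mem v1 (h.I_X k1), e.1, e.2, fun e =>
        v3 (mc.1 ((mul_mem_cancel_right (mc.2 (h.I_in k1))).1 (mc.2 e)))⟩, rfl⟩⟩)
  rw [h.card_O1 hS] at d
  rw [Set.ofPred_mem_eq, h.WW_R] at e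
  omega

end Pat

end Cfsg.Agent.Lib.He
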