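import Cfsg.Agent.Lib.He.XS

set_option autoImplicit false
set_option maxRecDepth 100000

/-! # The local counts in the order formula -/

namespace Cfsg.Agent.Lib.He

open Subgroup Cfsg.Agent.Lib.Core
open Cfsg.Agent.Lib.Root.J1 (Iv conj_comm' comm_of_conj comm_conj card_eq_orbit_mul card_eq_ncard)
open Cfsg.Agent.Lib.Jk (mc back conj_inj ncard_conj)

variable {G : Type*} [Group G]

theorem cnt_cc : ∀ i, (LM.filter fun a => a * cc i = cc i * a).length = 128 := by decide +kernel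
theorem cc_f : ∀ ε i, inU i (cc i) = true ∧ (ε i = false → dt ε (cc i) = true) ∧ dt ε tp = true := by
  decide +kernel

theorem cnt_conj (n u s t : G) : {v | IsConj t v ∧ s ∈ zpowers (u * v)}.ncard =
    {v | IsConj t v ∧ n * s * n⁻¹ ∈ zpowers (n * u * n⁻¹ * v)}.ncard :=
  ncard_conj n _ _ fun v => by
    rw [isConj_cj, conj_mul, ← conj_mem_map_conj (g := n), MonoidHom.map_zpowers]; rfl

theorem zp_comm [Finite G] {u v t : G} (hu : Iv u) (hv : Iv v) (ht : Iv t) (e : t ∈ zpowers (u * v)) :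
    v * t = t * v ∧ ∃ k : ℕ, (u * v) ^ k = t := by
  obtain ⟨k, rfl⟩ := (mem_powers_iff_mem_zpowers.2 e : ∃ k : ℕ, _)
  refine ⟨(comm_of_conj ?_).symm, k, rfl⟩
  exact (Invol.conj_pow_of_inverts (Invol.conj_right_mul_eq_inv hu.2 hv.2) k).trans ht.inv

theorem pow_odd {r t : G} (ht : Iv t) (c : Commute r t) (ho : Odd (orderOf r)) :
    (r * t) ^ orderOf r = t := by
  obtain ⟨m, hm⟩ := ho
  rw [c.mul_pow, pow_orderOf_eq_one, hm, pow_succ, pow_mul, pow_two, ht.2]; simp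

/-- outer involutions `v` of `C(t)` with `a a^v` of odd order -/
def WW (φ : M →* G) (a : G) : Set G :=
  {v | v ∈ XX φ ∧ Iv v ∧ v * φ tp ≠ φ tp * v ∧ Odd (orderOf (a * (v * a * v⁻¹)))}

namespace Pat
variable {z : G} {φ : M →* G} {ε : Bool → Bool} (h : Pat z φ ε) [Finite G]
include h

theorem g_odd {u : G} (hu : IsConj z u) (uX : u ∈ XX φ) (ut : ¬ IsConj z (u * φ t0)) :
    {v | IsConj (φ t0) v ∧ φ t0 ∈ zpowers (u * v)}.ncard =
      {j | Cj (XX φ) u j ∧ Odd (orderOf (u * j))}.ncard := by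
  rw [← Set.ncard_image_of_injective {j | Cj (XX φ) u j ∧ Odd (orderOf (u * j))} (mul_left_injective (φ t0))]
  congr 1
  ext v
  have iu := h.iv_of hu
  constructor
  · rintro ⟨h1, h2⟩
    have iv := h.iv_of' h1
    obtain ⟨c, k, e⟩ := zp_comm iu iv h.iv_t h2
    have d := dih uX (mc.2 c) iu.2 iv.2 k
    rw [e] at d
    have d2 := (d.resolve_left fun d => ut (hu.trans d.1.isConj)).2
    refine ⟨v * φ t0, ⟨d2, by_contra fun o => ?_⟩, by simp [mul_assoc, h.iv_t.2]⟩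
    obtain ⟨m, m1, m2, -, -, d⟩ := dih_ex uX (mul_mem (mc.2 c) (mc.2 rfl)) iu
      (h.iv_of (hu.trans d2.isConj)) o
    rw [iv_unique m2 h.iv_t (zpowers_le.2 (mul_assoc u v _ ▸ mul_mem (mem_zpowers _) h2) m1) h2] at d
    exact ut (d.elim (fun d => hu.trans d.1.isConj) fun d => hu.trans (d2.trans d.1).isConj)
  · rintro ⟨_, ⟨⟨x, hx, rfl⟩, o⟩, rfl⟩
    refine ⟨?_, ?_⟩
    · show IsConj _ (x * u * x⁻¹ * φ t0)
      nth_rewrite 2 [← conj_comm' (mc.1 hx).symm]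
      rw [conj_mul, isConj_cj]
      refine (h.all ⟨fun e => h.not_both hu ?_, ?_⟩).resolve_left ut
      · rw [eq_inv_of_mul_eq_one_left e, h.iv_t.inv]
      · rw [mul_assoc, ← mul_assoc (φ t0), ← mc.1 uX, mul_assoc, h.iv_t.2, mul_one, iu.2]
    · rw [← mul_assoc]
      exact ⟨orderOf (u * (x * u * x⁻¹)), (zpow_natCast ..).trans (pow_odd h.iv_t
        (mc.1 (mul_mem uX (mul_mem (mul_mem hx uX) (inv_mem hx)))) o)⟩

theorem card_WW {a : G} (ha : Cj (XX φ) z a) : (WW φ z).ncard = (WW φ a).ncard := by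
  obtain ⟨x, hx, rfl⟩ := ha
  refine ncard_conj x _ _ fun v => ?_
  rw [mul_mem_cancel_right (inv_mem hx), mul_mem_cancel_left hx, conj_inv, conj_mul, conj_mul, conj_mul,
    Invol.orderOf_conj']
  exact and_congr_right fun hv => and_congr ⟨fun e => e.conj x, fun e => by
    simpa [mul_assoc] using e.conj x⁻¹⟩ (and_congr_left' (h.in_iff hx hv).not.symm)

theorem ff_tp : {v | IsConj (φ t0) v ∧ φ tp ∈ zpowers (z * v)}.ncard = (WW φ z).ncard := by
  have tU := fun i => h.memU'.2 (tp_f.1 i)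
  obtain ⟨g, hg⟩ := isConj_iff.1 ((h.dt_iff tp).2 (cc_f ε true).2.2).symm
  obtain ⟨n, hn, e⟩ := h.ctrl2 tU (g := g) (hg ▸ h.tU)
  obtain ⟨u, hu, e1⟩ := h.memZ fun i => conj_mem_of_mem_normalizer (hn i) (h.zU i)
  have uD : IsConj z (φ u) := cj e1.symm
  have ut : IsConj z (φ u * φ t0) := by
    rw [e1, ← hg, ← e, conj_mul, isConj_cj, ← h.map_z, ← map_mul, h.map_z, h.dz_iff]
    exact (v_dz ε).2.2.2.1
  obtain ⟨s, hs, s1, s2⟩ := I1_f ε u hu ((h.dz_iff _).1 uD) ((h.dz_iff _).1 (by rwa [map_mul]))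
  have sp : (∀ i, φ s ∈ UU φ i) ∧ (∀ x ∈ XX φ, x * φ tp = φ tp * x → x * φ s = φ s * x) ∧
      ∀ x ∈ XX φ, x * φ tp * x⁻¹ = φ tp * φ t0 → x * φ s * x⁻¹ = φ s * φ t0 := by
    simp only [List.mem_cons, List.not_mem_nil, or_false] at hs
    rcases hs with rfl | rfl
    · exact ⟨tU, fun _ _ e => e, fun _ _ e => e⟩
    · rw [map_mul]
      exact ⟨fun i => mul_mem (tU i) (h.tU i), fun x hx e => Commute.mul_right e (mc.1 hx),
        fun x hx e => by rw [← conj_mul, e, conj_comm' (mc.1 hx).symm]⟩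
  have uU := fun i => h.memU'.2 ((mem_ZL u).1 hu i)
  have ha : Cj (XX φ) z (φ u * φ s) := by
    obtain ⟨k, hk, e⟩ := (h.I_Z.2 (φ u * φ s)).2 ⟨fun i => mul_mem (uU i) (sp.1 i),
      by rw [← map_mul, h.dz_iff, s1], by rw [← map_mul, ← map_mul]; exact h.ndz s2⟩
    exact ⟨k, hk.2, e⟩
  have ss := Emb.U_sq (sp.1 true)
  rw [cnt_conj n, e, hg, ← e1, show φ u = φ u * φ s * φ s by rw [mul_assoc, ss, mul_one], h.card_WW ha]
  rw [show φ u = φ u * φ s * φ s by rw [mul_assoc, ss, mul_one]] at uD ut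
  generalize φ u * φ s = a at *
  generalize φ s = s at *
  have aX := h.I_X ha
  have ia := h.I_iv ha
  have as := sp.2.1 a aX (h.I_in ha)
  have sq : ∀ v ∈ XX φ, Iv v → v * φ tp ≠ φ tp * v → (a * s * v) ^ 2 = a * (v * a * v⁻¹) * φ t0 :=
    fun v hv iv o => by
    have b := ha.conj hv
    calc _ = a * (s * (v * a * v⁻¹)) * (v * s * v⁻¹) * (v * v) := by rw [pow_two]; group
      _ = _ := by
        rw [sp.2.2 v hv ((h.hV hv).resolve_left o), ← sp.2.1 _ (h.I_X b) (h.I_in b), iv.2]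
        simp only [mul_assoc, mul_one, ← mul_assoc s, ss, one_mul]
  congr 1
  ext v
  constructor
  · rintro ⟨h1, h2⟩
    have iv := h.iv_of' h1
    obtain ⟨c, k, e⟩ := zp_comm (h.iv_of uD) iv h.iv_t h2
    have vX := mc.2 c
    have d := dih (mul_mem aX (h.UX _ (sp.1 true))) vX (h.iv_of uD).2 iv.2 k
    rw [e] at d
    obtain ⟨l, rfl⟩ := (d.resolve_right fun d => h.not_both (ut.trans d.1.isConj.symm) h1).2.2
    rw [← two_mul, pow_mul] at e
    have o : v * φ tp ≠ φ tp * v := fun o => by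
      have := dih_even (mul_mem aX vX) (Invol.conj_mul_eq_inv ia.2 iv.2) l
      rw [pow_mul, show (a * v) ^ 2 = (a * s * v) ^ 2 by
        rw [mul_assoc a, ← sp.2.1 v vX o, ← mul_assoc, Commute.mul_pow (Commute.mul_left as (sp.2.1 v vX o)),
          pow_two s, ss, mul_one], e] at this
      exact h.I_t ha (ha.trans this).isConj
    refine ⟨vX, iv, o, ?_⟩
    have b := ha.conj vX
    rw [sq v vX iv o, Commute.mul_pow (mc.1 (mul_mem aX (h.I_X b)))] at e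
    rcases Nat.even_or_odd' l with ⟨m, rfl | rfl⟩
    · rw [pow_mul (φ t0), pow_two, h.iv_t.2, one_pow, mul_one] at e
      have := dih_even (mul_mem aX (h.I_X b)) (Invol.conj_mul_eq_inv ia.2 (h.I_iv b).2) m
      exact absurd (ha.trans (e ▸ this)).isConj (h.I_t ha)
    · rw [pow_succ (φ t0), pow_mul (φ t0), pow_two, h.iv_t.2, one_pow, one_mul, mul_eq_right] at e
      exact Odd.of_dvd_nat ⟨m, rfl⟩ (orderOf_dvd_of_pow_eq_one e)
  · rintro ⟨vX, iv, o, e⟩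
    refine ⟨h.out_t vX iv o, ?_⟩
    rw [← pow_odd h.iv_t (mc.1 (mul_mem aX (h.I_X (ha.conj vX)))) e, ← sq v vX iv o]
    exact pow_mem (pow_mem (mem_zpowers _) _) _

theorem ff_cc {i : Bool} (hi : ε (!i) = false) :
    128 * ({v | IsConj (φ t0) v ∧ φ (cc (!i)) ∈ zpowers (z * v)}.ncard + 11) = Nat.card (XX φ) := by
  have cU := h.memU'.2 (cc_f ε (!i)).1
  obtain ⟨g, hg⟩ := isConj_iff.1 ((h.dt_iff _).2 ((cc_f ε (!i)).2.1 hi)).symm
  obtain ⟨n, hn, e⟩ := h.ctrl cU (g := g) (hg ▸ h.tU _)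
  rw [hg] at e
  have uD : IsConj z (n * z * n⁻¹) := cj rfl
  have u1 := conj_mem_of_mem_normalizer hn (h.zU _)
  have u2 : n * z * n⁻¹ ∉ UU φ (!!i) := fun u2 => by
    obtain ⟨k, k1, k2⟩ := h.pt_s (g := n⁻¹) (h.zU (!!i)) (IsConj.refl z) (mem_cg.2 (by simpa using u2))
    obtain ⟨a, rfl⟩ := h.surj k⁻¹ ((Commute.inv_right (comm_of_conj k2)).symm)  |>.imp fun a ha =>
      (inv_eq_iff_eq_inv.2 ha : (φ a)⁻¹ = k)
    have : φ (cc (!i)) ∈ cg (φ a)⁻¹ (UU φ (!!i)) := k1 ▸ mem_cg.2 (by simpa [e] using h.tU i)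
    rw [mem_cg, inv_inv, ← map_inv, ← map_mul, ← map_mul, h.memU', inU_conj, cc_pp] at this
    exact absurd this (by simp)
  have c128 : Nat.card (XX φ ⊓ centralizer {n * z * n⁻¹} : Subgroup G) = 128 := by
    rw [XX, ← e, ← map_conj_centralizer_singleton, ← map_conj_centralizer_singleton,
      ← map_inf _ _ _ (MulAut.conj n).injective, card_map_conj,
      h.card_sub _ (fun a => a * cc (!i) = cc (!i) * a) inf_le_right fun a => by
        simp [mc, h.comm, h.comm_iff], cnt_cc]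
  rw [cnt_conj n, e]
  generalize n * z * n⁻¹ = u at *
  obtain ⟨ut, hm⟩ := h.Lm hi uD u1 u2
  have uX := h.UX _ u1
  have iu := h.iv_of uD
  have e1 := card_eq_orbit_mul (XX φ) u
  have e2 := card_eq_orbit_mul (NJ φ ⊓ XX φ) u
  rw [h.card_XJ, inf_assoc (NJ φ), inf_eq_right.2 (show XX φ ⊓ centralizer {u} ≤ NJ φ from fun c hc =>
    h.L_le hi (mem_inf.2 ⟨cg_norm.1
    (h.uniq1 uD hc.1 (conj_comm' (mc.1 hc.2).symm ▸ cg_mem u1) u1), hc.1⟩)), c128] at e2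
  rw [c128] at e1
  have e3 := Set.ncard_sdiff_add_ncard_of_subset (s := {y | ∃ k ∈ NJ φ ⊓ XX φ, k * u * k⁻¹ = y})
    (t := {y | ∃ k ∈ XX φ, k * u * k⁻¹ = y}) fun _ ⟨k, hk, e⟩ => ⟨k, hk.2, e⟩
  rw [h.g_odd uD uX ut, show {j | Cj (XX φ) u j ∧ Odd (orderOf (u * j))} = insert u
    ({y | ∃ k ∈ XX φ, k * u * k⁻¹ = y} \ {y | ∃ k ∈ NJ φ ⊓ XX φ, k * u * k⁻¹ = y}) from ?_,
    Set.ncard_insert_of_notMem fun e => e.2 (Cj.refl _ u)]
  · omega
  ext j
  constructor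
  · refine fun ⟨h1, o⟩ => or_iff_not_imp_right.2 fun e => ?_
    obtain ⟨k, hk, rfl⟩ := by_contra fun e1 => e ⟨h1, e1⟩
    have m := conj_mem_of_mem_normalizer (NJ_le φ _ hk.1) u1
    exact (two_eq (h.pU _) (iu.conj k) u1 m o).symm
  · rintro (rfl | ⟨⟨x, hx, rfl⟩, e⟩)
    · exact ⟨Cj.refl _ _, by simp [iu.2]⟩
    refine ⟨⟨x, hx, rfl⟩, by_contra fun o => e ⟨x, ⟨h.L_le hi (mem_inf.2 ⟨cg_norm.1 ?_, hx⟩), hx⟩, rfl⟩⟩
    have bX := h.cgX hx _ (cg_mem u1)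
    have bD := isConj_cj (g := x).2 uD
    obtain ⟨m, m1, m2, c1, c2, d⟩ := dih_ex uX bX iu (iu.conj x) o
    have mX := zpowers_le.2 (mul_mem uX bX) m1
    have d1 := d.elim (fun d => uD.trans d.1.isConj) fun d => bD.trans d.1.isConj
    have d2 := d.elim (fun d => bD.trans d.2.isConj) fun d => uD.trans d.2.isConj
    have f1 := h.Lc hi hx uD u1 u2 d2 mX c2
    have f2 := h.Lc hi (one_mem _) uD u1 u2 (by simpa using d1) mX (by simpa using c1)
    rw [cg_one] at f2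
    by_cases f3 : m ∈ UU φ i
    · exact h.uniq1 (hm m m2 f2 (by simpa using f3) d1) hx f1 f2
    · exact h.reg (mem_inf.2 ⟨h.X_le hi hx, hx⟩) f2 f3 (le_normalizer f1)

theorem ff_t0 : {v | IsConj (φ t0) v ∧ φ t0 ∈ zpowers (z * v)}.ncard =
    {j | Cj (XX φ) z j ∧ Odd (orderOf (z * j))}.ncard :=
  h.g_odd (IsConj.refl z) h.zX (h.I_t (Cj.refl _ z))

theorem WW_R : {v | v ∈ WW φ z ∧ v * z = z * v}.ncard = 16 := by
  rw [← out_f]
  exact h.ncard_list _ _ (nodup_IL.filter _) (fun _ e => e.2) fun a => by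
    simp [WW, mc, h.comm_iff, h.iv_iff, h.comm, h.iv.2, mem_IL, ← inR_iff, and_left_comm]

theorem n_le {i : Bool} (hi : ε (!i) = false) :
    {j | Cj (XX φ) z j ∧ Odd (orderOf (z * j))}.ncard = 1 ∧ (WW φ z).ncard = 16 := by
  have k : ∀ x ∈ XX φ, Odd (orderOf (z * (x * z * x⁻¹))) → x * z * x⁻¹ = z := fun x hx o =>
    (two_eq (h.pU i) (h.iv.conj x) (h.zU i) (conj_mem_of_mem_normalizer (h.X_le hi hx) (h.zU i)) o).symm
  refine ⟨ncard_one z fun j => ⟨?_, ?_⟩, ?_⟩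
  · rintro ⟨⟨x, hx, rfl⟩, o⟩; exact k x hx o
  · rintro rfl; exact ⟨Cj.refl _ _, by simp [h.iv.2]⟩
  · rw [← h.WW_R]
    congr 1
    exact Set.ext fun v => ⟨fun e => ⟨e, (comm_of_conj (k v e.1 e.2.2.2)).symm⟩, fun e => e.1⟩

end Pat

end Cfsg.Agent.Lib.He
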