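import Cfsg.Agent.Lib.He.Plane

set_option autoImplicit false
set_option maxRecDepth 100000

/-! # The centraliser of the second involution -/

namespace Cfsg.Agent.Lib.He

open Subgroup Cfsg.Agent.Lib.Core
open Cfsg.Agent.Lib.Root.J1 (Iv conj_comm' comm_of_conj comm_conj card_eq_orbit_mul card_eq_ncard)
open Cfsg.Agent.Lib.Jk (mc back conj_inj ncard_conj)

variable {G : Type*} [Group G]

theorem cg_inj (g : G) : Function.Injective (cg g) := map_injective (MulAut.conj g).injective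

theorem two_eq {P : Subgroup G} (hP : IsPGroup 2 P) {a b : G} (hb : Iv b) (h1 : a ∈ P) (h2 : b ∈ P)
    (ho : Odd (orderOf (a * b))) : a = b := by
  rw [eq_inv_of_mul_eq_one_left (Invol.eq_one_of_mem_two_group_of_odd hP (mul_mem h1 h2) ho), hb.inv]

namespace Pat
variable {z : G} {φ : M →* G} {ε : Bool → Bool} (h : Pat z φ ε) [Finite G]
include h

theorem fl_norm {i : Bool} {A B : Subgroup G} (f : Fl φ i A B) : B ≤ normalizer (A : Set G) := by
  obtain ⟨x, -, rfl, rfl⟩ := f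
  rw [← map_conj_normalizer]; exact map_mono (h.U_norm _ _)

theorem reg' {i : Bool} {A B B' : Subgroup G} {y : G} (f1 : Fl φ i A B) (f2 : Fl φ i A B') (h1 : y ∈ B)
    (h2 : y ∉ A) (hy : y ∈ normalizer (B' : Set G)) : B' = B := by
  obtain ⟨g, hg, rfl, rfl⟩ := f1
  have f3 := f2.cg (inv_mem hg)
  rw [cg_cg, inv_mul_cancel, cg_one] at f3
  obtain ⟨x, hx, e⟩ := f3.base
  have := h.reg hx (mem_cg.1 h1) (mt mem_cg.2 h2)
    (by rw [e, ← map_conj_normalizer]; simpa using cg_mem (g := g⁻¹) hy)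
  rw [← this, e, cg_cg, mul_inv_cancel, cg_one]

theorem cp {i : Bool} {l l' p q : Subgroup G} (h1 : Fl φ i l p) (h2 : Fl φ i l q) (h3 : Fl φ i l' p)
    (h4 : Fl φ i l' q) : q = p ∨ l' = l := by
  obtain ⟨y, hy, rfl, rfl⟩ := h2
  by_cases e : y * z * y⁻¹ ∈ p
  · obtain ⟨w, hw, -, rfl⟩ := h1
    exact .inl (h.uniqX (cj rfl) hy hw (cg_mem (h.zU _)) e)
  · exact .inr (h.reg' h1.symm' h3.symm' (cg_mem (h.zU _)) e (h.fl_norm h4 (cg_mem (h.zU _))))

omit h [Finite G] in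
theorem Fl_eq {i : Bool} {x : G} (hx : x ∈ XX φ) :
    {B | Fl φ i (cg x (UU φ i)) B} = cg x '' PP φ i := by
  ext B
  constructor
  · intro f
    have f3 := f.cg (inv_mem hx)
    rw [cg_cg, inv_mul_cancel, cg_one] at f3
    exact ⟨_, PP_iff.2 f3, by rw [cg_cg, mul_inv_cancel, cg_one]⟩
  · rintro ⟨B, hB, rfl⟩
    exact (PP_iff.1 hB).cg hx

theorem card_L (hS : ∀ i, ε i = true) (i : Bool) : {B | ∃ k ∈ XX φ, cg k (UU φ i) = B}.ncard = 21 := by
  have d := dc (PP φ i) ({B | ∃ k ∈ XX φ, cg k (UU φ i) = B} \ {UU φ i}) (fun p l => Fl φ i l p) 4 1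
    (by
      rintro _ ⟨y, hy, rfl⟩
      have e := Set.ncard_image_of_injective (PP φ (!i)) (cg_inj y)
      rw [← Fl_eq hy.2, h.card_PP (hS _), ← Set.ncard_sdiff_singleton_add_one (a := UU φ i)
        (PP_iff.1 ⟨y, hy, rfl⟩).symm', Nat.add_right_cancel_iff (k := 4)] at e
      rw [← e]
      congr 1
      ext l
      exact ⟨fun f => ⟨f.2.symm', f.1.2⟩, fun f => ⟨⟨let ⟨x, hx, e, _⟩ := Fl.symm f.1; ⟨x, hx, e⟩, f.2⟩,
        Fl.symm f.1⟩⟩)
    (by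
      rintro _ ⟨⟨x, hx, rfl⟩, ne⟩
      obtain ⟨p, hp, f⟩ := h.plane (hS i) hx
      exact ncard_one p fun q => ⟨fun hq => (h.cp (PP_iff.1 hp) (PP_iff.1 hq.1) f hq.2).resolve_right ne,
        by rintro rfl; exact ⟨hp, f⟩⟩)
  rw [h.card_PP (hS i)] at d
  rw [← Set.ncard_sdiff_singleton_add_one (a := UU φ i) (by exact ⟨1, one_mem _, cg_one _⟩)]
  omega

theorem Lc {j : Bool} (hj : ε j = false) {u y x : G} (hx : x ∈ XX φ) (hu : IsConj z u)
    (u1 : u ∈ UU φ j) (u2 : u ∉ UU φ (!j)) (hy : IsConj z (x * u * x⁻¹ * y)) (yX : y ∈ XX φ)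
    (c : Commute y (x * u * x⁻¹)) : y ∈ cg x (UU φ j) := by
  obtain ⟨y, rfl⟩ : ∃ c, x * c * x⁻¹ = y := ⟨x⁻¹ * y * x, by group⟩
  rw [conj_mul, isConj_cj] at hy
  rw [Commute, SemiconjBy, conj_mul, conj_mul, conj_inj] at c
  rw [mul_mem_cancel_right (inv_mem hx), mul_mem_cancel_left hx] at yX
  obtain ⟨i, w, hw, e1, e2⟩ := h.cu hu (h.UX j u1) hy (mul_mem (h.UX j u1) yX) (by rw [mul_assoc, c])
  revert e1 e2
  refine all_bool (P := fun i => u ∈ cg w (UU φ i) → u * y ∈ cg w (UU φ i) → _) j (fun e1 e2 => ?_)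
    (fun e1 _ => absurd (h.L0 hj hw u1 e1) u2) i
  exact cg_mem ((mul_mem_cancel_left u1).1 (h.uniq1 hu hw e1 u1 ▸ e2))

theorem Lm {j : Bool} (hj : ε j = false) {u : G} (hu : IsConj z u) (u1 : u ∈ UU φ j)
    (u2 : u ∉ UU φ (!j)) : ¬ IsConj z (u * φ t0) ∧
      ∀ m, Iv m → m ∈ UU φ j → m ∈ UU φ (!j) → IsConj z (u * m) → IsConj z m := by
  obtain ⟨u, h1, rfl⟩ := Emb.memU.1 u1
  obtain ⟨e1, e2⟩ := (L_f ε j hj u h1 ((h.dz_iff u).1 hu)).resolve_left (mt h.memU'.2 u2)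
  refine ⟨map_mul φ u t0 ▸ h.ndz e1, fun m m1 m2 m3 m4 => ?_⟩
  obtain ⟨m, hm, rfl⟩ := h.memZ (all_bool j m2 m3)
  rw [← map_mul, h.dz_iff] at m4
  exact (h.dz_iff m).2 ((e2 m hm m4).resolve_left fun e => m1.1 (h.eq_one.2 e))

theorem X_le {i : Bool} (hi : ε (!i) = false) : XX φ ≤ NU φ i := fun x hx => by
  cases e : ε i
  · have uD := fun i => (h.dz_iff _).2 ((v_dz ε).2.2.2.2.2 i)
    have u1 := fun i => h.memU'.2 (fpf_f i).2.1
    have u2 := fun i => mt h.memU'.1 (Bool.eq_false_iff.1 (fpf_f i).2.2.1)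
    have aX := h.cgX hx i (cg_mem (u1 i))
    have bX := h.UX _ (u1 (!i))
    have aD := isConj_cj (g := x).2 (uD i)
    by_cases o : Odd (orderOf (x * φ (uu i) * x⁻¹ * φ (uu (!i))))
    · obtain ⟨k, k1, -, k3⟩ := ex_swap (h.iv_of aD) (h.iv_of (uD _)) o
      refine absurd (h.L0 hi (mul_mem (k3 _ aX bX).1 hx) (u1 _) ?_) (u2 _)
      rw [Bool.not_not, ← k1, ← cg_cg]; exact cg_mem (cg_mem (u1 i))
    obtain ⟨m, m1, m2, c1, c2, d⟩ := dih_ex aX bX (h.iv_of aD) (h.iv_of (uD _)) o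
    have mX := zpowers_le.2 (mul_mem aX bX) m1
    have d1 := d.elim (fun d => aD.trans d.1.isConj) fun d => (uD _).trans d.1.isConj
    have d2 := d.elim (fun d => (uD _).trans d.2.isConj) fun d => aD.trans d.2.isConj
    have e1 := h.Lc e hx (uD i) (u1 i) (u2 i) d1 mX c1
    have e2 := h.Lc hi (one_mem _) (uD _) (u1 _) (u2 _) (by simpa using d2) mX (by simpa using c2)
    rw [cg_one] at e2
    have e3 := h.L0 hi hx e2 (by rwa [Bool.not_not])
    exact cg_norm.1 (h.uniq1 ((h.Lm hi (uD _) (u1 _) (u2 _)).2 m m2 e2 e3 d2) hx e1 (by simpa using e3))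
  · obtain ⟨_, ⟨y, hy, rfl⟩, w, hw, e1, e2⟩ := h.plane e hx
    have := h.L_le hi (mem_inf.2 ⟨cg_eq_iff.1 e2, mul_mem (inv_mem hy.2) hw⟩)
    rw [← cg_norm, ← e1]
    exact (cg_eq_iff.2 (NJ_le φ i this)).trans (cg_norm.2 hy.1)

theorem card_X : Nat.card (XX φ) = if ε false then (if ε true then 161280 else 7680) else
    (if ε true then 7680 else 1536) := by
  have k : ∀ i, ε (!i) = false → Nat.card (XX φ) = if ε i then 7680 else 1536 := fun i hi => by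
    rw [← h.card_XU, inf_eq_right.2 (h.X_le hi)]
  cases e1 : ε false
  · simpa using k true e1
  cases e2 : ε true
  · simpa [e1] using k false e2
  rw [card_orb _ (UU φ true), h.card_L (all_bool true e2 e1), inf_comm, h.card_XU, e2]
  rfl

theorem hV {x : G} (hx : x ∈ XX φ) : x * φ tp = φ tp * x ∨ x * φ tp * x⁻¹ = φ tp * φ t0 := by
  have tU := fun i => h.memU'.2 (tp_f.1 i)
  have k : ∀ {x a}, x ∈ XX φ → φ a = x * φ tp * x⁻¹ → (dz ε a = true ∨ dz ε (a * t0) = true ∨ a = 1 ∨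
      a = t0 ∨ a = tp ∨ a = tp * t0) → x * φ tp * x⁻¹ = φ tp ∨ x * φ tp * x⁻¹ = φ tp * φ t0 := by
    intro x a hx e
    have c := conj_comm' (mc.1 hx).symm
    simp only [← h.dz_iff, ← h.eq_iff, map_mul, e, map_one, isConj_cj, conj_eq_one_iff]
    rintro (e | e | e | e | e)
    · exact absurd e (h.ndz (v_dz ε).1)
    · rw [← c, conj_mul, isConj_cj, ← map_mul] at e; exact absurd e (h.ndz (v_dz ε).2.1)
    · exact absurd (h.eq_one.1 e) tp_f.2.1
    · rw [← c, conj_inj, h.eq_iff] at e; exact absurd e tp_f.2.2.1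
    · exact e
  have k1 : ∀ {x i}, ε i = true → x ∈ NU φ i → x ∈ XX φ → _ := fun {x i} hi h1 h2 =>
    let ⟨a, ha, e⟩ := Emb.memU.1 (conj_mem_of_mem_normalizer h1 (tU i)); k h2 e (v_U ε i hi a ha)
  refine Or.imp_left (fun e => (comm_of_conj e).symm) ?_
  cases e1 : ε false <;> cases e2 : ε true
  · obtain ⟨a, ha, e⟩ := h.memZ fun i => conj_mem_of_mem_normalizer
      (h.X_le (i := i) (by cases i <;> assumption) hx) (tU i)
    exact k hx e (v_Z ε a ha)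
  · exact k1 e2 (h.X_le (i := true) e1 hx) hx
  · exact k1 e1 (h.X_le (i := false) e2 hx) hx
  obtain ⟨_, ⟨y, hy, rfl⟩, w, hw, e3, e4⟩ := h.plane e2 hx
  have m : ∀ {a b}, a ∈ XX φ → (a * φ tp * a⁻¹ = φ tp ∨ a * φ tp * a⁻¹ = φ tp * φ t0) →
      (b * φ tp * b⁻¹ = φ tp ∨ b * φ tp * b⁻¹ = φ tp * φ t0) →
      (a * b * φ tp * (a * b)⁻¹ = φ tp ∨ a * b * φ tp * (a * b)⁻¹ = φ tp * φ t0) := by
    intro a b ha h1 h2
    rw [show a * b * φ tp * (a * b)⁻¹ = a * (b * φ tp * b⁻¹) * a⁻¹ by group]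
    rcases h2 with h2 | h2 <;> rw [h2]
    · exact h1
    · rw [← conj_mul, conj_comm' (mc.1 ha).symm]
      rcases h1 with h1 | h1 <;> rw [h1]
      exacts [.inr rfl, .inl (by rw [mul_assoc, h.iv_t.2, mul_one])]
  have yw := mul_mem (inv_mem (mem_inf.1 hy).2) hw
  simpa using m (mul_mem (mem_inf.1 hy).2 yw) (m hy.2 (k1 e2 hy.1 hy.2) (k1 e1 (cg_eq_iff.1 e4) yw))
    (k1 e2 (cg_eq_iff.1 e3.symm) (mul_mem (inv_mem hw) hx))

theorem in_conj {x v : G} (hx : x ∈ XX φ) (hv : v ∈ XX φ) (c : v * φ tp = φ tp * v) :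
    x * v * x⁻¹ * φ tp = φ tp * (x * v * x⁻¹) := by
  have e := comm_conj x c
  rcases h.hV hx with e1 | e1
  · rwa [conj_comm' e1.symm] at e
  · have := mc.1 (mul_mem (mul_mem hx hv) (inv_mem hx))
    rw [e1, mul_assoc (φ tp), ← this, ← mul_assoc, ← mul_assoc (φ tp)] at e
    exact mul_right_cancel e

theorem in_iff {x v : G} (hx : x ∈ XX φ) (hv : v ∈ XX φ) :
    x * v * x⁻¹ * φ tp = φ tp * (x * v * x⁻¹) ↔ v * φ tp = φ tp * v :=
  ⟨fun e => by
    simpa [mul_assoc] using h.in_conj (inv_mem hx) (mul_mem (mul_mem hx hv) (inv_mem hx)) e,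
    h.in_conj hx hv⟩

theorem I_in {a : G} (ha : Cj (XX φ) z a) : a * φ tp = φ tp * a := by
  obtain ⟨x, hx, rfl⟩ := ha
  exact h.in_conj hx h.zX (h.comm _).symm

theorem out_t {v : G} (hv : v ∈ XX φ) (iv : Iv v) (o : v * φ tp ≠ φ tp * v) : IsConj (φ t0) v := by
  refine (h.all iv).resolve_left fun e => o ?_
  obtain ⟨c, hc, e1⟩ := h.sylR.exists_conj_le (Invol.isPGroup_zpowers_of_involution iv.orderOf)
    (zpowers_le.2 hv)
  obtain ⟨j, hj⟩ := h.R_D (map_conj_le_iff.1 e1 v (mem_zpowers v)) (isConj_cj.2 e)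
  exact (h.in_iff hc hv).1 (Emb.U_comm hj (h.memU'.2 (tp_f.1 j)))

end Pat

end Cfsg.Agent.Lib.He
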